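import Cfsg.Agent.Lib.Char.Integral
import Mathlib.Algebra.MonoidAlgebra.Basic
import Mathlib.GroupTheory.PGroup
import Mathlib.Algebra.CharP.Lemmas

/-!
# Nonvanishing on an abelian normal `p`-subgroup at classes of size prime to `p`
-/

set_option autoImplicit false

namespace Cfsg.Agent.Lib.CharNonvanishing

open Cfsg.Agent.Lib.Char

universe u

theorem pow_sum_mem {A : Type u} [CommRing A] {p : ℕ} (hp : p.Prime) (a : ℕ) {ι : Type*}
    (s : Finset ι) (f : ι → A) (hf : ∀ i ∈ s, (p : A) ∣ f i ^ p ^ a) :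
    (p : A) ∣ (∑ i ∈ s, f i) ^ p ^ a := by
  classical
  induction s using Finset.induction_on with
  | empty => simp [zero_pow (pow_ne_zero a hp.ne_zero)]
  | insert i s hi ih =>
    rw [Finset.sum_insert hi]
    obtain ⟨r, hr⟩ := exists_add_pow_prime_pow_eq hp (f i) (∑ j ∈ s, f j) a
    rw [hr]
    refine dvd_add (dvd_add (hf i (Finset.mem_insert_self i s))
      (ih fun j hj => hf j (Finset.mem_insert_of_mem hj))) ?_
    simp only [mul_assoc]
    exact dvd_mul_right _ _

/-- An irreducible character vanishes at no element of an abelian normal `p`-subgroup whose class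
size is prime to `p`. -/
theorem apply_ne_zero {X : Type u} [Group X] [Finite X] {p : ℕ} (hp : p.Prime) (V : Subgroup X)
    [V.Normal] (hVp : IsPGroup p V) (hab : ∀ a ∈ V, ∀ b ∈ V, a * b = b * a) {χ : X → ℂ}
    (hχ : IsIrrCharacter X χ) {v : X} (hv : v ∈ V)
    (hcl : ¬ p ∣ (Subgroup.centralizer ({v} : Set X)).index) : χ v ≠ 0 := by
  classical
  have := Fintype.ofFinite X
  intro h0
  have hclass := isClassFunction_of_isIrr hχ
  have hχ1 := irr_degree_ne_zero hχ
  obtain ⟨n, ρ, hρ, rfl⟩ := hχ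
  letI : CommGroup ↥V :=
    { (inferInstance : Group ↥V) with mul_comm := fun a b => Subtype.ext (hab a a.2 b b.2) }
  have hmem : ∀ x, IsConj x v → x ∈ V := by
    intro x hx
    obtain ⟨k, rfl⟩ := isConj_iff.1 hx.symm
    exact ‹V.Normal›.conj_mem _ hv k
  have hf : IsClassFunction X (fun x => if IsConj x v then (1 : ℂ) else 0) := fun a b => by
    have : IsConj (b * a * b⁻¹) v ↔ IsConj a v :=
      ⟨fun h => (isConj_iff.mpr ⟨b, rfl⟩).trans h,
        fun h => (isConj_iff.mpr ⟨b, rfl⟩ : IsConj a (b * a * b⁻¹)).symm.trans h⟩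
    simp only [this]
  obtain ⟨c, hc, hc'⟩ := avgOp_irreducible ρ hf
  have hsum : ∑ x ∈ Finset.univ.filter (fun x => IsConj x v), ρ x = (0 : Module.End ℂ (Fin n → ℂ)) := by
    have e : (∑ g : X, (if IsConj g v then (1 : ℂ) else 0) * ρ.character g) = 0 := by
      simp only [ite_mul, one_mul, zero_mul]
      rw [sum_conjClass_mul hclass v, h0, mul_zero]
    rw [e, mul_eq_zero] at hc'
    have hc0 : c = 0 := hc'.resolve_right fun hd => hχ1 (by rw [Representation.char_one, hd])
    rw [hc0, zero_smul, avgOp] at hc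
    rw [← hc, Finset.sum_filter]
    refine Finset.sum_congr rfl fun x _ => ?_
    split_ifs <;> simp
  let φ : MonoidAlgebra ℤ ↥V →ₐ[ℤ] Module.End ℂ (Fin n → ℂ) :=
    MonoidAlgebra.lift ℤ (Module.End ℂ (Fin n → ℂ)) ↥V (ρ.comp V.subtype)
  set C : Finset ↥V := Finset.univ.filter fun u => IsConj (u : X) v with hC
  haveI := Fact.mk hp
  obtain ⟨a, ha⟩ := hVp.exists_card_eq
  have hdvd : (p : MonoidAlgebra ℤ ↥V) ∣
      (∑ u ∈ C, (MonoidAlgebra.of ℤ ↥V u - 1)) ^ p ^ a := by
    refine pow_sum_mem hp a C _ fun u _ => ?_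
    obtain ⟨r, hr⟩ := exists_add_pow_prime_pow_eq hp (MonoidAlgebra.of ℤ ↥V u - 1) 1 a
    rw [sub_add_cancel, ← map_pow, ← ha, pow_card_eq_one', map_one, one_pow] at hr
    rw [← ha]
    have e : (MonoidAlgebra.of ℤ ↥V u - 1) ^ Nat.card ↥V =
        -((p : MonoidAlgebra ℤ ↥V) * (MonoidAlgebra.of ℤ ↥V u - 1) * 1 * r) := by
      linear_combination -hr
    rw [e, dvd_neg]
    simp only [mul_assoc]
    exact dvd_mul_right _ _
  obtain ⟨y, hy⟩ := hdvd
  have hcardC : C.card = (Subgroup.centralizer ({v} : Set X)).index := by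
    rw [← card_conjClass_eq_index]
    exact Finset.card_bij (fun u _ => (u : X)) (by simp [hC]) (fun _ _ _ _ h => Subtype.ext h)
      (fun x hx => ⟨⟨x, hmem x (Finset.mem_filter.1 hx).2⟩, by simpa [hC] using hx, rfl⟩)
  have himg : φ (∑ u ∈ C, (MonoidAlgebra.of ℤ ↥V u - 1)) =
      algebraMap ℂ (Module.End ℂ (Fin n → ℂ)) (-(C.card : ℂ)) := by
    rw [Finset.sum_sub_distrib, map_sub, map_sum, Finset.sum_const, nsmul_one, map_natCast,
      map_neg, map_natCast]
    have e : ∑ u ∈ C, φ (MonoidAlgebra.of ℤ ↥V u) = 0 := by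
      rw [← hsum]
      refine Finset.sum_bij (fun u _ => (u : X)) (by simp [hC]) (fun _ _ _ _ h => Subtype.ext h)
        (fun x hx => ⟨⟨x, hmem x (Finset.mem_filter.1 hx).2⟩, by simpa [hC] using hx, rfl⟩)
        (fun u _ => ?_)
      simp [φ]
    rw [e, zero_sub]
  have hpy : φ y = algebraMap ℂ (Module.End ℂ (Fin n → ℂ))
      ((-(C.card : ℂ)) ^ p ^ a / (p : ℂ)) := by
    have h1 := congrArg φ hy
    rw [map_pow, himg, map_mul, map_natCast, ← map_pow] at h1
    have hp' : (p : ℂ) ≠ 0 := Nat.cast_ne_zero.2 hp.ne_zero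
    rw [div_eq_inv_mul, map_mul, h1, ← map_natCast (algebraMap ℂ (Module.End ℂ (Fin n → ℂ))) p,
      ← mul_assoc, ← map_mul, inv_mul_cancel₀ hp', map_one, one_mul]
  have hint : IsIntegral ℤ (φ y) := (IsIntegral.of_finite ℤ y).map φ
  rw [hpy] at hint
  have : Nonempty (Fin n) := by
    rcases n with _ | n
    · simp at hχ1
    · exact ⟨0⟩
  have hint' := (isIntegral_algebraMap_iff (RingHom.injective _)).mp hint
  rcases neg_one_pow_eq_or ℂ (p ^ a) with h | h
  · rw [neg_pow, h, one_mul, ← Nat.cast_pow, hcardC] at hint'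
    exact hcl (hp.dvd_of_dvd_pow (dvd_of_isIntegral_div hp.ne_zero hint'))
  · rw [neg_pow, h, neg_mul, one_mul, neg_div, IsIntegral.neg_iff, ← Nat.cast_pow, hcardC] at hint'
    exact hcl (hp.dvd_of_dvd_pow (dvd_of_isIntegral_div hp.ne_zero hint'))

end Cfsg.Agent.Lib.CharNonvanishing
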