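import Cfsg.Agent.Lib.DefectOne.TraceIndep
import Cfsg.Agent.Lib.Block.PParts
import Mathlib.LinearAlgebra.Trace
import Mathlib.LinearAlgebra.Eigenspace.Triangularizable
import Mathlib.GroupTheory.Sylow
import Mathlib.GroupTheory.OrderOfElement
import Mathlib.Algebra.CharP.Lemmas
import Mathlib.FieldTheory.IsAlgClosed.Basic

/-!
Brauer's count: over an algebraically closed field of characteristic `p`, a complete family of
inequivalent irreducible representations has as many members as there are classes of elements of order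
prime to `p`.
-/

set_option autoImplicit false

namespace Cfsg.Agent.Lib.RegularClasses

universe u w

variable {k : Type u} [Field k] {G : Type u} [Group G]

theorem trace_eq_restrict_add_mapQ {V : Type u} [AddCommGroup V] [Module k V] [FiniteDimensional k V]
    (f : Module.End k V) (W : Submodule k V) (hW : ∀ x ∈ W, f x ∈ W) :
    LinearMap.trace k V f =
      LinearMap.trace k W (f.restrict hW) + LinearMap.trace k (V ⧸ W) (W.mapQ W f hW) := by
  obtain ⟨s, hs⟩ := W.mkQ.exists_rightInverse_of_surjective W.range_mkQ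
  have hs' : ∀ y, W.mkQ (s y) = y := fun y => LinearMap.congr_fun hs y
  have hmem : ∀ x, ((LinearMap.id : V →ₗ[k] V) - s ∘ₗ W.mkQ) x ∈ W := fun x => by
    refine (Submodule.Quotient.mk_eq_zero W).1 ?_
    show W.mkQ (x - s (W.mkQ x)) = 0
    rw [map_sub, hs', sub_self]
  let π : V →ₗ[k] W := LinearMap.codRestrict W ((LinearMap.id : V →ₗ[k] V) - s ∘ₗ W.mkQ) hmem
  have e1 : f = (f ∘ₗ W.subtype) ∘ₗ π + (f ∘ₗ s) ∘ₗ W.mkQ := by
    refine LinearMap.ext fun x => ?_
    simp [π]
  have e2 : π ∘ₗ (f ∘ₗ W.subtype) = f.restrict hW := by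
    refine LinearMap.ext fun x => Subtype.ext ?_
    simp [π, (Submodule.Quotient.mk_eq_zero W).2 (hW x x.2)]
  have e3 : W.mkQ ∘ₗ (f ∘ₗ s) = W.mapQ W f hW := by
    refine LinearMap.ext fun y => ?_
    conv_rhs => rw [← hs' y]
    rfl
  conv_lhs => rw [e1, map_add, LinearMap.trace_comp_comm', e2, LinearMap.trace_comp_comm', e3]

theorem trace_funLeft {X : Type u} [Fintype X] [DecidableEq X] (σ : X → X) :
    LinearMap.trace k (X → k) (LinearMap.funLeft k k σ) = (Nat.card {x // σ x = x} : k) := by
  rw [LinearMap.trace_eq_matrix_trace k (Pi.basisFun k X), Matrix.trace]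
  have : ∀ x, Matrix.diag (LinearMap.toMatrix (Pi.basisFun k X) (Pi.basisFun k X)
      (LinearMap.funLeft k k σ)) x = if σ x = x then 1 else 0 := fun x => by
    rw [Matrix.diag_apply, LinearMap.toMatrix_apply, Pi.basisFun_repr, Pi.basisFun_apply,
      LinearMap.funLeft_apply, Pi.single_apply]
  simp only [this, Finset.sum_boole, Nat.card_eq_fintype_card, Fintype.card_subtype]

variable [IsAlgClosed k] (S : Submodule k (G → k))

/-- Traces of commuting pairs lie in the span of traces of irreducible representations. -/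
theorem trace_comp_mem
    (hall : ∀ (V : Type u) [AddCommGroup V] [Module k V] [FiniteDimensional k V]
      (π : Representation k G V), π.IsIrreducible → (fun g => LinearMap.trace k V (π g)) ∈ S) :
    ∀ (n : ℕ) (V : Type u) [AddCommGroup V] [Module k V] [FiniteDimensional k V],
      Module.finrank k V = n → ∀ (π : Representation k G V) (R : Module.End k V),
      (∀ g, Commute (π g) R) → (fun g => LinearMap.trace k V (π g * R)) ∈ S := by
  intro n
  induction n using Nat.strong_induction_on with
  | _ n ih =>
    intro V _ _ _ hn π R hR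
    have split : ∀ W : Submodule k V, W ≠ ⊥ → W ≠ ⊤ → (∀ g, ∀ x ∈ W, π g x ∈ W) →
        (∀ x ∈ W, R x ∈ W) → (fun g => LinearMap.trace k V (π g * R)) ∈ S := by
      intro W h0 h1 hπ hRW
      have l1 : Module.finrank k W < n := hn ▸ Submodule.finrank_lt h1
      have l2 : Module.finrank k (V ⧸ W) < n := by
        have := W.finrank_quotient_add_finrank
        have : 0 < Module.finrank k W := by
          rw [Nat.pos_iff_ne_zero, Ne, Submodule.finrank_eq_zero]; exact h0
        omega
      let π₁ : Representation k G W :=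
        { toFun := fun g => (π g).restrict (hπ g)
          map_one' := LinearMap.ext fun x => Subtype.ext (by simp)
          map_mul' := fun a b => LinearMap.ext fun x => Subtype.ext (by simp) }
      let π₂ : Representation k G (V ⧸ W) :=
        { toFun := fun g => W.mapQ W (π g) (hπ g)
          map_one' := Submodule.linearMap_qext _ (LinearMap.ext fun x => by simp)
          map_mul' := fun a b => Submodule.linearMap_qext _ (LinearMap.ext fun x => by simp) }
      have hc : ∀ g (x : V), π g (R x) = R (π g x) := fun g x => LinearMap.congr_fun (hR g).eq x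
      have a1 := ih _ l1 W rfl π₁ (R.restrict hRW) fun g =>
        LinearMap.ext fun x => Subtype.ext (hc g x)
      have a2 := ih _ l2 (V ⧸ W) rfl π₂ (W.mapQ W R hRW) fun g =>
        Submodule.linearMap_qext _ (LinearMap.ext fun x => congrArg (Submodule.Quotient.mk) (hc g x))
      convert S.add_mem a1 a2 using 1
      funext g
      rw [trace_eq_restrict_add_mapQ (π g * R) W fun x hx => hπ g _ (hRW x hx)]
      refine congrArg₂ (· + ·) (congrArg _ (LinearMap.ext fun x => Subtype.ext rfl))
        (congrArg _ (Submodule.linearMap_qext _ (LinearMap.ext fun x => rfl)))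
    rcases subsingleton_or_nontrivial V with hV | hV
    · convert S.zero_mem using 1
      funext g
      rw [Subsingleton.elim (π g * R) 0, map_zero]
      rfl
    obtain ⟨μ, hμ⟩ := Module.End.exists_eigenvalue R
    by_cases htop : Module.End.eigenspace R μ = ⊤
    · have hRμ : R = μ • 1 := LinearMap.ext fun x => by
        have : x ∈ Module.End.eigenspace R μ := htop ▸ Submodule.mem_top
        simpa [Module.End.mem_eigenspace_iff] using this
      by_cases hirr : π.IsIrreducible
      · convert S.smul_mem μ (hall V π hirr) using 1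
        funext g
        simp [hRμ]
      · obtain ⟨W, h0, h1⟩ : ∃ W : Subrepresentation π, W.toSubmodule ≠ ⊥ ∧ W.toSubmodule ≠ ⊤ := by
          by_contra h
          push Not at h
          haveI : Nontrivial (Subrepresentation π) := ⟨⟨⊥, ⊤, fun e => bot_ne_top (α := Submodule k V)
            (congrArg Subrepresentation.toSubmodule e)⟩⟩
          refine hirr ⟨fun W => ?_⟩
          by_cases h0 : W.toSubmodule = ⊥
          exacts [Or.inl (Subrepresentation.toSubmodule_injective h0),
            Or.inr (Subrepresentation.toSubmodule_injective (h W h0))]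
        exact split W.toSubmodule h0 h1 (fun g x hx => W.apply_mem_toSubmodule g hx)
          fun x hx => by rw [hRμ]; exact Submodule.smul_mem _ _ hx
    · refine split _ (fun h => ?_) htop (fun g x hx => ?_) fun x hx => ?_
      · exact hμ h
      · rw [Module.End.mem_eigenspace_iff] at hx ⊢
        rw [← LinearMap.map_smul, ← hx]
        exact (LinearMap.congr_fun (hR g).eq x).symm
      · rw [Module.End.mem_eigenspace_iff] at hx ⊢
        rw [hx, map_smul, hx]

section Count

variable {p : ℕ} [Fact p.Prime] [Finite G]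
omit [IsAlgClosed k]

theorem exists_indicator [IsAlgClosed k] [CharP k p]
    (hall : ∀ (V : Type u) [AddCommGroup V] [Module k V] [FiniteDimensional k V]
      (π : Representation k G V), π.IsIrreducible → (fun g => LinearMap.trace k V (π g)) ∈ S)
    {s : G} (hs : ¬ p ∣ orderOf s) :
    ∃ f ∈ S, f s ≠ 0 ∧ ∀ g, ¬ p ∣ orderOf g → ¬ IsConj g s → f g = 0 := by
  classical
  set C := Subgroup.centralizer ({s} : Set G) with hC
  obtain ⟨P₀⟩ : Nonempty (Sylow p C) := inferInstance
  set P := (P₀ : Subgroup C).map C.subtype with hP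
  have hPC : ∀ z ∈ P, Commute z s := by
    rintro z ⟨z', -, rfl⟩
    exact Subgroup.mem_centralizer_singleton_iff.1 z'.2
  have hPp : IsPGroup p P := P₀.2.map _
  let ρs : G ⧸ P → G ⧸ P := Quotient.map' (· * s) fun a b h => by
    rw [QuotientGroup.leftRel_apply] at h ⊢
    rw [mul_inv_rev, show s⁻¹ * a⁻¹ * (b * s) = s⁻¹ * ((a⁻¹ * b) * s) by group, (hPC _ h).eq,
      inv_mul_cancel_left]
    exact h
  haveI := Fintype.ofFinite (G ⧸ P)
  let π : Representation k G (G ⧸ P → k) :=
    { toFun := fun g => LinearMap.funLeft k k fun q => g⁻¹ • q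
      map_one' := LinearMap.ext fun f => funext fun q => by simp
      map_mul' := fun a b => LinearMap.ext fun f => funext fun q => by simp [mul_smul] }
  let R : Module.End k (G ⧸ P → k) := LinearMap.funLeft k k ρs
  have hcomm : ∀ g, Commute (π g) R := fun g => LinearMap.ext fun f => funext fun q => by
    induction q using QuotientGroup.induction_on with
    | _ x =>
      show f (ρs (g⁻¹ • (x : G ⧸ P))) = f (g⁻¹ • ρs (x : G ⧸ P))
      exact congrArg f (congrArg QuotientGroup.mk (mul_assoc g⁻¹ x s))
  have hmem := trace_comp_mem S hall _ (G ⧸ P → k) rfl π R hcomm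
  have hval : ∀ g, LinearMap.trace k (G ⧸ P → k) (π g * R) =
      (Nat.card {q : G ⧸ P // ρs (g⁻¹ • q) = q} : k) := fun g => trace_funLeft _
  have hfix : ∀ g x : G, ¬ p ∣ orderOf g →
      (ρs (g⁻¹ • (x : G ⧸ P)) = (x : G ⧸ P) ↔ x⁻¹ * g * x = s) := by
    intro g x hg
    show ((g⁻¹ * x * s : G) : G ⧸ P) = (x : G ⧸ P) ↔ _
    rw [QuotientGroup.eq]
    refine ⟨fun h => ?_, fun h => by subst h; simp [mul_assoc]⟩
    set z := (g⁻¹ * x * s)⁻¹ * x with hz
    have hy : x⁻¹ * g * x = s * z := by rw [hz]; group
    have hord : orderOf (x⁻¹ * g * x) = orderOf g :=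
      (MulAut.conj x⁻¹).orderOf_eq g |>.symm ▸ by simp [MulAut.conj_apply]
    obtain ⟨e, he⟩ := hPp ⟨z, h⟩
    obtain ⟨j, -, hj⟩ := (Nat.dvd_prime_pow (Fact.out : p.Prime)).1
      (orderOf_dvd_of_pow_eq_one (congrArg Subtype.val he : z ^ p ^ e = 1))
    have hco : (orderOf s).Coprime (orderOf z) := by
      rw [hj]
      exact Nat.Coprime.pow_right _
        (Nat.Coprime.symm ((Fact.out : p.Prime).coprime_iff_not_dvd.2 hs))
    rw [hy, (hPC z h).symm.orderOf_mul_eq_mul_orderOf_of_coprime hco, hj] at hord
    cases j with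
    | zero => rw [pow_zero, orderOf_eq_one_iff] at hj; rw [hy, show z = 1 from hj, mul_one]
    | succ j => exact absurd (hord ▸ dvd_mul_of_dvd_right (dvd_pow_self p (Nat.succ_ne_zero j)) _) hg
  refine ⟨_, hmem, ?_, fun g hg hne => ?_⟩
  · show LinearMap.trace k (G ⧸ P → k) (π s * R) ≠ 0
    rw [hval, Ne, CharP.cast_eq_zero_iff k p]
    have hcard : Nat.card {q : G ⧸ P // ρs (s⁻¹ • q) = q} = (P₀ : Subgroup C).index := by
      symm
      refine Nat.card_congr (Equiv.ofBijective (fun c => ⟨Quotient.map' (fun x : C => (x : G))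
        (fun a b h => ?_) c, ?_⟩) ⟨fun a b h => ?_, fun q => ?_⟩)
      · rw [QuotientGroup.leftRel_apply] at h ⊢
        exact Subgroup.mem_map_of_mem C.subtype h
      · induction c using QuotientGroup.induction_on with
        | _ x =>
          refine (hfix s (x : G) hs).2 ?_
          rw [mul_assoc, ← Subgroup.mem_centralizer_singleton_iff.1 x.2, inv_mul_cancel_left]
      · induction a using QuotientGroup.induction_on with
        | _ a =>
          induction b using QuotientGroup.induction_on with
          | _ b =>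
            have h1 : ((a : G) : G ⧸ P) = ((b : G) : G ⧸ P) := congrArg Subtype.val h
            rw [QuotientGroup.eq] at h1 ⊢
            obtain ⟨z, hz, e⟩ := h1
            rwa [show a⁻¹ * b = z from Subtype.ext e.symm]
      · obtain ⟨q, hq⟩ := q
        induction q using QuotientGroup.induction_on with
        | _ x =>
          have hx := (hfix s x hs).1 hq
          have hxC : x ∈ C := by
            refine Subgroup.mem_centralizer_singleton_iff.2 ?_
            conv_lhs => rw [← hx]
            group
          exact ⟨((⟨x, hxC⟩ : C) : C ⧸ (P₀ : Subgroup C)), rfl⟩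
    rw [hcard]
    exact P₀.not_dvd_index
  · show LinearMap.trace k (G ⧸ P → k) (π g * R) = 0
    rw [hval]
    haveI : IsEmpty {q : G ⧸ P // ρs (g⁻¹ • q) = q} := ⟨fun ⟨q, hq⟩ => by
      induction q using QuotientGroup.induction_on with
      | _ x => exact hne (isConj_iff.2 ⟨x⁻¹, by rw [inv_inv]; exact (hfix g x hg).1 hq⟩)⟩
    rw [Nat.card_of_isEmpty, Nat.cast_zero]

theorem trace_mul_pElem [CharP k p] {V : Type u} [AddCommGroup V] [Module k V] [FiniteDimensional k V]
    (π : Representation k G V) {x y : G} (hc : Commute x y) (hx : Block.IsPElem p x) :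
    LinearMap.trace k V (π (x * y)) = LinearMap.trace k V (π y) := by
  obtain ⟨e, he⟩ := hx
  have hnil : IsNilpotent (π x - 1) := by
    refine ⟨p ^ e, ?_⟩
    have h := congrArg (Polynomial.aeval (R := k) (π x))
      (show ((Polynomial.X : Polynomial k) - 1) ^ p ^ e = Polynomial.X ^ p ^ e - 1 by
        rw [sub_pow_char_pow, one_pow])
    simp only [map_pow, map_sub, Polynomial.aeval_X, map_one] at h
    rw [h, ← map_pow, ← he, pow_orderOf_eq_one, map_one, sub_self]
  have hc' : Commute (π y) (π x - 1) := (hc.symm.map π).sub_right (Commute.one_right _)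
  rw [← sub_eq_zero, ← map_sub, show π (x * y) - π y = π y * (π x - 1) by
    rw [mul_sub, mul_one, ← map_mul, hc.eq]]
  exact (LinearMap.isNilpotent_trace_of_isNilpotent (hc'.isNilpotent_mul_left hnil)).eq_zero

theorem trace_conj_eq {V : Type u} [AddCommGroup V] [Module k V] [FiniteDimensional k V]
    (π : Representation k G V) (c g : G) :
    LinearMap.trace k V (π (c * g * c⁻¹)) = LinearMap.trace k V (π g) := by
  rw [map_mul, LinearMap.trace_mul_comm, ← map_mul]
  congr 2
  group

/-- The count. -/
theorem card_regClasses [IsAlgClosed k] [CharP k p] {ι : Type w} [Finite ι] {V : ι → Type u}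
    [∀ i, AddCommGroup (V i)] [∀ i, Module k (V i)] [∀ i, FiniteDimensional k (V i)]
    (τ : ∀ i, Representation k G (V i)) (hirr : ∀ i, (τ i).IsIrreducible)
    (hne : ∀ i j, i ≠ j → IsEmpty (Representation.Equiv (τ i) (τ j)))
    (hall : ∀ (W : Type u) [AddCommGroup W] [Module k W] [FiniteDimensional k W]
      (π : Representation k G W), π.IsIrreducible →
        ∃ i, ∀ g, LinearMap.trace k W (π g) = LinearMap.trace k (V i) (τ i g)) :
    Nat.card {c : ConjClasses G // ∃ g : G, ConjClasses.mk g = c ∧ ¬ p ∣ orderOf g} = Nat.card ι := by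
  classical
  haveI := Fintype.ofFinite ι
  haveI : Finite (ConjClasses G) := Finite.of_surjective _ ConjClasses.mk_surjective
  let R := {c : ConjClasses G // ∃ g : G, ConjClasses.mk g = c ∧ ¬ p ∣ orderOf g}
  haveI := Fintype.ofFinite R
  choose r hrc hr using fun c : R => c.2
  let f : ι → G → k := fun i g => LinearMap.trace k (V i) (τ i g)
  let L : (G → k) →ₗ[k] (R → k) := LinearMap.funLeft k k r
  have hrconj : ∀ y, ∀ hy : ¬ p ∣ orderOf y, IsConj (r ⟨ConjClasses.mk y, y, rfl, hy⟩) y :=
    fun y hy => ConjClasses.mk_eq_mk_iff_isConj.1 (hrc ⟨ConjClasses.mk y, y, rfl, hy⟩)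
  have hli : LinearIndependent k (L ∘ f) := by
    have h0 := DefectOne.linearIndependent_trace τ hirr hne
    rw [Fintype.linearIndependent_iff] at h0 ⊢
    intro a ha
    refine h0 a (funext fun g => ?_)
    obtain ⟨x, y, hxy, hc, hx, hy⟩ := Block.exists_isPPart (p := p) g
    obtain ⟨c, hc'⟩ := isConj_iff.1 (hrconj y hy)
    have key : ∀ i, f i g = f i (r ⟨ConjClasses.mk y, y, rfl, hy⟩) := fun i => by
      show LinearMap.trace k (V i) (τ i g) = LinearMap.trace k (V i) (τ i _)
      rw [← hxy, trace_mul_pElem (τ i) hc hx]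
      conv_lhs => rw [← hc', trace_conj_eq]
    have := congrFun ha ⟨ConjClasses.mk y, y, rfl, hy⟩
    simp only [Finset.sum_apply, Pi.smul_apply, Pi.zero_apply] at this ⊢
    rw [← this]
    exact Finset.sum_congr rfl fun i _ => by rw [show LinearMap.trace k (V i) (τ i g) = _ from key i]; rfl
  have hspan : Submodule.span k (Set.range (L ∘ f)) = ⊤ := by
    rw [Set.range_comp, Submodule.span_image, eq_top_iff]
    intro φ _
    rw [pi_eq_sum_univ φ]
    refine Submodule.sum_mem _ fun c _ => Submodule.smul_mem _ _ ?_
    obtain ⟨e, heS, he0, hev⟩ := exists_indicator (Submodule.span k (Set.range f))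
      (fun W _ _ _ π hπ => by
        obtain ⟨i, hi⟩ := hall W π hπ
        exact Submodule.subset_span ⟨i, funext fun g => (hi g).symm⟩) (hr c)
    refine ⟨(e (r c))⁻¹ • e, Submodule.smul_mem _ _ heS, funext fun d => ?_⟩
    show (e (r c))⁻¹ • e (r d) = if c = d then 1 else 0
    by_cases h : c = d
    · subst h; rw [if_pos rfl, smul_eq_mul, inv_mul_cancel₀ he0]
    · rw [if_neg h, hev _ (hr d) fun hc => h (Subtype.ext ?_), smul_zero]
      rw [← hrc c, ← hrc d]
      exact (ConjClasses.mk_eq_mk_iff_isConj.2 hc).symm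
  have h := Module.finrank_eq_card_basis (Module.Basis.mk hli hspan.ge)
  rw [Module.finrank_fintype_fun_eq_card] at h
  rw [Nat.card_eq_fintype_card, Nat.card_eq_fintype_card]
  exact h

end Count

end Cfsg.Agent.Lib.RegularClasses
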