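import Mathlib

/-! Additive maps of a finite field as combinations of its automorphisms. -/

set_option autoImplicit false
set_option linter.style.haveILetI false

namespace Cfsg.Agent.Lib.FieldAddMaps

variable {F : Type*} [Field F]

theorem linInd : LinearIndependent F (fun σ : F ≃+* F => ((σ : F →+* F) : F → F)) :=
  (linearIndependent_monoidHom F F).comp (fun σ : F ≃+* F => (σ : F →* F)) fun σ τ h =>
    RingEquiv.ext fun x => DFunLike.congr_fun h x

variable [Fintype F]

theorem exists_combination (p : ℕ) [Fact p.Prime] [CharP F p] [Fintype (F ≃+* F)] (f : F →+ F) :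
    ∃ c : (F ≃+* F) → F, ∀ x, f x = ∑ σ, c σ * σ x := by
  classical
  letI : Algebra (ZMod p) F := ZMod.algebra F p
  haveI : Module.Finite (ZMod p) F := Module.Finite.of_finite
  let Φ : (F ≃+* F) → (F →ₗ[ZMod p] F) := fun σ => (σ : F →+ F).toZModLinearMap p
  have hli : LinearIndependent F Φ := LinearIndependent.of_comp (LinearMap.ltoFun (ZMod p) F F F) linInd
  have hcard : Fintype.card (F ≃+* F) = Module.finrank F (F →ₗ[ZMod p] F) := by
    refine le_antisymm hli.fintype_card_le_finrank ?_
    have h1 : Module.finrank F (F →ₗ[ZMod p] F) = Module.finrank (ZMod p) F := by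
      rw [Module.finrank_linearMap, Module.finrank_self, mul_one]
    rw [h1, ← IsGalois.card_aut_eq_finrank (ZMod p) F, ← Nat.card_eq_fintype_card]
    exact Nat.card_le_card_of_injective (fun σ : F ≃ₐ[ZMod p] F => (σ : F ≃+* F))
      fun σ τ h => AlgEquiv.ext fun x => RingEquiv.congr_fun h x
  have htop : Submodule.span F (Set.range Φ) = ⊤ := hli.span_eq_top_of_card_eq_finrank hcard
  obtain ⟨c, hc⟩ := (Submodule.mem_span_range_iff_exists_fun F).1
    (htop.ge (Submodule.mem_top (x := f.toZModLinearMap p)))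
  refine ⟨c, fun x => ?_⟩
  have := LinearMap.congr_fun hc x
  simpa [Φ, LinearMap.sum_apply] using this.symm

theorem exists_bilinear (p : ℕ) [Fact p.Prime] [CharP F p] [Fintype (F ≃+* F)] (B : F →+ F →+ F) :
    ∃ c : (F ≃+* F) × (F ≃+* F) → F, ∀ x y, B x y = ∑ q, c q * (q.1 x * q.2 y) := by
  classical
  have h : ∀ y, ∃ c : (F ≃+* F) → F, ∀ x, B x y = ∑ σ, c σ * σ x := fun y =>
    exists_combination p (B.flip y)
  choose c hc using h
  have huniq : ∀ a b : (F ≃+* F) → F, (∀ x, ∑ σ, a σ * σ x = ∑ σ, b σ * σ x) → a = b := by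
    intro a b hab
    have hz := Fintype.linearIndependent_iff.1 (linInd (F := F)) (fun σ => a σ - b σ) (by
      funext x
      simp only [Finset.sum_apply, Pi.smul_apply, smul_eq_mul, Pi.zero_apply, sub_mul,
        Finset.sum_sub_distrib, RingEquiv.coe_toRingHom, hab x, sub_self])
    exact funext fun σ => sub_eq_zero.1 (hz σ)
  have hadd : ∀ σ, ∀ y z, c (y + z) σ = c y σ + c z σ := by
    intro σ y z
    have := huniq (c (y + z)) (fun τ => c y τ + c z τ) fun x => by
      rw [← hc, map_add, hc, hc, ← Finset.sum_add_distrib]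
      exact Finset.sum_congr rfl fun τ _ => (add_mul _ _ _).symm
    exact congrFun this σ
  have h2 : ∀ σ, ∃ d : (F ≃+* F) → F, ∀ y, c y σ = ∑ τ, d τ * τ y := fun σ =>
    exists_combination p (AddMonoidHom.mk' (fun y => c y σ) (hadd σ))
  choose d hd using h2
  refine ⟨fun q => d q.1 q.2, fun x y => ?_⟩
  rw [hc, Fintype.sum_prod_type]
  refine Finset.sum_congr rfl fun σ _ => ?_
  rw [hd, Finset.sum_mul]
  exact Finset.sum_congr rfl fun τ _ => by ring

end Cfsg.Agent.Lib.FieldAddMaps
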