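import Cfsg.Agent.Lib.Char.Orthogonality
import Cfsg.Agent.Lib.Char.FrobSchur
import Mathlib.LinearAlgebra.Matrix.Charpoly.Eigs
import Mathlib.LinearAlgebra.Matrix.Kronecker
import Mathlib.RingTheory.IntegralClosure.IsIntegralClosure.Basic
import Mathlib.RingTheory.Adjoin.FG

/-!
# Class functions with integral coefficients

`IntFn φ`: all coefficients of the class function `φ` on the irreducible characters are algebraic
integers.  Traces of integral matrices commuting with a representation give such functions.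
-/

set_option autoImplicit false

open scoped ComplexConjugate Kronecker
open Polynomial Matrix

namespace Cfsg.Agent.Lib.IntClass

open Cfsg.Agent.Lib.Char

universe u v w

variable {H : Type u} [Group H] [Fintype H]

/-- All coefficients on the irreducible characters are algebraic integers. -/
def IntFn (φ : H → ℂ) : Prop :=
  IsClassFunction H φ ∧ ∀ θ : IrrCharacter H, IsIntegral ℤ (classInner φ (θ : H → ℂ))

theorem isIntegral_natCast (n : ℕ) : IsIntegral ℤ (n : ℂ) :=
  isIntegral_algebraMap (x := (n : ℤ))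

theorem IntFn.of_isCharacter {φ : H → ℂ} (h : IsCharacter H φ) : IntFn φ :=
  ⟨isClassFunction_of_isCharacter h, fun θ => by
    obtain ⟨n, hn⟩ := classInner_natCast h (isCharacter_of_isIrr θ.2)
    rw [hn]
    exact isIntegral_natCast n⟩

theorem IntFn.add {φ ψ : H → ℂ} (h : IntFn φ) (h' : IntFn ψ) : IntFn (φ + ψ) :=
  ⟨isClassFunction_add h.1 h'.1, fun θ => by
    rw [classInner_add_left]; exact (h.2 θ).add (h'.2 θ)⟩

theorem IntFn.sum {ι : Type v} (s : Finset ι) (f : ι → H → ℂ) (h : ∀ i ∈ s, IntFn (f i)) :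
    IntFn (∑ i ∈ s, f i) :=
  ⟨isClassFunction_sum s f fun i hi => (h i hi).1, fun θ => by
    rw [classInner_sum_left]; exact IsIntegral.sum _ fun i hi => (h i hi).2 θ⟩

theorem IntFn.smul {φ : H → ℂ} (h : IntFn φ) {c : ℂ} (hc : IsIntegral ℤ c) : IntFn (c • φ) :=
  ⟨isClassFunction_smul c h.1, fun θ => by
    rw [classInner_smul_left]; exact hc.mul (h.2 θ)⟩

theorem IntFn.const {c : ℂ} (hc : IsIntegral ℤ c) : IntFn (fun _ : H => c) := by
  have := (IntFn.of_isCharacter (H := H) isCharacter_one).smul hc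
  simpa [Pi.smul_def] using this

theorem IntFn.mul {φ ψ : H → ℂ} (h : IntFn φ) (h' : IntFn ψ) : IntFn (φ * ψ) := by
  rw [eq_sum_classInner_smul h.1, eq_sum_classInner_smul h'.1, Finset.sum_mul_sum]
  refine IntFn.sum _ _ fun a _ => IntFn.sum _ _ fun b _ => ?_
  rw [smul_mul_smul_comm]
  exact (IntFn.of_isCharacter (isCharacter_mul (isCharacter_of_isIrr a.2)
    (isCharacter_of_isIrr b.2))).smul ((h.2 a).mul (h'.2 b))

theorem IntFn.pow {φ : H → ℂ} (h : IntFn φ) : ∀ k : ℕ, IntFn (φ ^ k)
  | 0 => by rw [pow_zero]; exact IntFn.const isIntegral_one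
  | k + 1 => by rw [pow_succ]; exact (IntFn.pow h k).mul h

/-- The trace of an integral matrix is integral. -/
theorem isIntegral_trace {ι : Type w} [Fintype ι] [DecidableEq ι] {B : Matrix ι ι ℂ} (hB : IsIntegral ℤ B) :
    IsIntegral ℤ B.trace := by
  rw [Matrix.trace_eq_sum_roots_charpoly]
  refine IsIntegral.multiset_sum fun μ hμ => ?_
  obtain ⟨P, hP, hPB⟩ := hB
  refine ⟨P, hP, ?_⟩
  have hroot : μ ∈ spectrum ℂ B := by
    rw [Matrix.mem_spectrum_iff_isRoot_charpoly]
    exact (Polynomial.mem_roots'.1 hμ).2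
  have h1 := spectrum.subset_polynomial_aeval B (P.map (algebraMap ℤ ℂ)) ⟨μ, hroot, rfl⟩
  have hne : Nonempty ι := by
    by_contra hc
    rw [not_nonempty_iff] at hc
    simp [Matrix.charpoly, Matrix.det_isEmpty] at hμ
  have : Nontrivial (Matrix ι ι ℂ) := inferInstance
  rw [Polynomial.aeval_map_algebraMap, Polynomial.aeval_def, hPB, spectrum.zero_eq,
    Set.mem_singleton_iff] at h1
  rw [← Polynomial.eval_map]
  exact h1

/-- An idempotent times a commuting integral element is integral. -/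
theorem isIntegral_idem_mul {R : Type w} [Ring R] {e B : R} (he : e * e = e) (hc : Commute e B)
    (hB : IsIntegral ℤ B) : IsIntegral ℤ (e * B) := by
  obtain ⟨P, hP, hPB⟩ := hB
  refine ⟨X * P, monic_X.mul hP, ?_⟩
  have hpow : ∀ k : ℕ, (e * B) ^ (k + 1) = e * B ^ (k + 1) := fun k => by
    rw [hc.mul_pow]
    congr 1
    induction k with
    | zero => rw [pow_one]
    | succ k ih => rw [pow_succ, ih, he]
  rw [← Polynomial.aeval_def]
  have key : Polynomial.aeval (e * B) (X * P) = e * Polynomial.aeval B (X * P) := by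
    rw [Polynomial.aeval_eq_sum_range, Polynomial.aeval_eq_sum_range, Finset.mul_sum]
    refine Finset.sum_congr rfl fun i _ => ?_
    rcases i with _ | i
    · simp
    · rw [hpow, mul_smul_comm]
  rw [key, map_mul (Polynomial.aeval B), Polynomial.aeval_def B P, hPB, mul_zero, mul_zero]

/-- A matrix with entries in `ℤ[ω]`, `ω` integral, is integral. -/
theorem isIntegral_matrix {ι : Type w} [Fintype ι] [DecidableEq ι] {ω : ℂ} (hω : IsIntegral ℤ ω)
    (B : Matrix ι ι ℂ) (hB : ∀ i j, B i j ∈ Algebra.adjoin ℤ ({ω} : Set ℂ)) : IsIntegral ℤ B := by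
  let R := Algebra.adjoin ℤ ({ω} : Set ℂ)
  have : Module.Finite ℤ R := Module.Finite.iff_fg.2 hω.fg_adjoin_singleton
  let B' : Matrix ι ι R := Matrix.of fun i j => ⟨B i j, hB i j⟩
  have : Module.Finite ℤ (Matrix ι ι R) := inferInstanceAs (Module.Finite ℤ (ι → ι → R))
  have h := (IsIntegral.of_finite ℤ B').map (R.val.mapMatrix (m := ι))
  exact h

/-- The trace of a representation times a commuting integral matrix has integral coefficients. -/
theorem intFn_trace {ι : Type w} [Fintype ι] [DecidableEq ι] (T : H →* Matrix ι ι ℂ) {A : Matrix ι ι ℂ}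
    (hA : IsIntegral ℤ A) (hc : ∀ h, T h * A = A * T h) : IntFn (fun h => (T h * A).trace) := by
  have hcf : IsClassFunction H (fun h => (T h * A).trace) := fun a b => by
    show (T (b * a * b⁻¹) * A).trace = (T a * A).trace
    rw [map_mul, map_mul, Matrix.mul_assoc, hc, ← Matrix.mul_assoc, Matrix.trace_mul_comm,
      ← Matrix.mul_assoc, ← Matrix.mul_assoc, ← map_mul, inv_mul_cancel, map_one, Matrix.one_mul]
  refine ⟨hcf, fun θ => ?_⟩
  obtain ⟨m, σ, hσ, hθ⟩ := θ.2
  let S : H →* Matrix (Fin m) (Fin m) ℂ :=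
    { toFun := fun h => (LinearMap.toMatrix' (σ h⁻¹))ᵀ
      map_one' := by simp [Module.End.one_eq_id, LinearMap.toMatrix'_id]
      map_mul' := fun a b => by
        rw [_root_.mul_inv_rev, map_mul, Module.End.mul_eq_comp, LinearMap.toMatrix'_comp,
          Matrix.transpose_mul] }
  have hS : ∀ h, (S h).trace = conj ((θ : H → ℂ) h) := fun h => by
    show (LinearMap.toMatrix' (σ h⁻¹))ᵀ.trace = _
    rw [Matrix.trace_transpose, trace_toMatrix'_eq, ← char_inv (isCharacter_of_isIrr θ.2)]
    rw [← hθ]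
  let T' : H →* Matrix (ι × Fin m) (ι × Fin m) ℂ :=
    { toFun := fun h => T h ⊗ₖ S h
      map_one' := by simp
      map_mul' := fun a b => by rw [map_mul, map_mul, Matrix.mul_kronecker_mul] }
  let e : Matrix (ι × Fin m) (ι × Fin m) ℂ := (Nat.card H : ℂ)⁻¹ • ∑ h, T' h
  let B : Matrix (ι × Fin m) (ι × Fin m) ℂ := A ⊗ₖ (1 : Matrix (Fin m) (Fin m) ℂ)
  have hmul : ∀ h, T' h * ∑ k, T' k = ∑ k, T' k := fun h => by
    rw [Finset.mul_sum]
    exact Fintype.sum_equiv (Equiv.mulLeft h) _ _ fun k => (map_mul T' h k).symm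
  have he : e * e = e := by
    simp only [e, Matrix.smul_mul, Matrix.mul_smul, Finset.sum_mul]
    rw [Finset.sum_congr rfl fun h _ => hmul h, Finset.sum_const, Finset.card_univ,
      ← Nat.card_eq_fintype_card, ← Nat.cast_smul_eq_nsmul ℂ, smul_smul, smul_smul, mul_assoc,
      inv_mul_cancel₀ (card_ne_zero_complex H), mul_one]
  have hT'B : ∀ h, T' h * B = B * T' h := fun h => by
    show (T h ⊗ₖ S h) * (A ⊗ₖ 1) = (A ⊗ₖ 1) * (T h ⊗ₖ S h)
    rw [← Matrix.mul_kronecker_mul, ← Matrix.mul_kronecker_mul, hc, Matrix.mul_one, Matrix.one_mul]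
  have hcomm : Commute e B := by
    show e * B = B * e
    simp only [e, Matrix.smul_mul, Matrix.mul_smul, Finset.sum_mul, Finset.mul_sum, hT'B]
  have hBint : IsIntegral ℤ B := by
    let L : Matrix ι ι ℂ →ₐ[ℤ] Matrix (ι × Fin m) (ι × Fin m) ℂ := RingHom.toIntAlgHom
      { toFun := fun M => M ⊗ₖ (1 : Matrix (Fin m) (Fin m) ℂ)
        map_one' := by simp
        map_mul' := fun M N => by rw [← Matrix.mul_kronecker_mul, Matrix.one_mul]
        map_zero' := by simp
        map_add' := fun M N => by rw [Matrix.add_kronecker] }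
    exact hA.map L
  have hint := isIntegral_trace (isIntegral_idem_mul he hcomm hBint)
  have hval : (e * B).trace = classInner (fun h => (T h * A).trace) (θ : H → ℂ) := by
    simp only [e, Matrix.smul_mul, Finset.sum_mul, Matrix.trace_smul, Matrix.trace_sum, classInner,
      smul_eq_mul]
    congr 1
    refine Finset.sum_congr rfl fun h _ => ?_
    show ((T h ⊗ₖ S h) * (A ⊗ₖ 1)).trace = _
    rw [← Matrix.mul_kronecker_mul, Matrix.mul_one, Matrix.trace_kronecker, hS]
  rwa [hval] at hint

end Cfsg.Agent.Lib.IntClass
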