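import Cfsg.Agent.Lib.Zsigmondy

/-! Lower bound for the primitive part of `q ^ n - 1` (after Feit). -/

set_option autoImplicit false

namespace Cfsg.Agent.Lib.PrimPartBound

open Polynomial Finset Cfsg.Agent.Lib.Zsigmondy

/-- `m` is a primitive divisor of `q ^ n - 1`. -/
def IsPrim (q n m : ℕ) : Prop :=
  m ∣ q ^ n - 1 ∧ ∀ i : ℕ, 1 ≤ i → i < n → Nat.Coprime m (q ^ i - 1)

/-- `|Φ_n(q)|`. -/
noncomputable def cycVal (q n : ℕ) : ℕ := ((cyclotomic n ℤ).eval (q : ℤ)).natAbs

theorem cycVal_cast {q n : ℕ} (hq : 1 < q) :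
    (cycVal q n : ℝ) = (cyclotomic n ℝ).eval (q : ℝ) := by
  rw [← evalR, cycVal, Nat.cast_natAbs, abs_of_nonneg]
  have h : (0 : ℝ) < (cyclotomic n ℝ).eval (q : ℝ) := cyclotomic_pos' n (by exact_mod_cast hq)
  rw [← evalR] at h
  exact_mod_cast h.le

theorem cycVal_dvd {q n : ℕ} (hq : 1 < q) : cycVal q n ∣ q ^ n - 1 := by
  have h := map_dvd (evalRingHom (q : ℤ)) (cyclotomic.dvd_X_pow_sub_one n ℤ)
  simp only [coe_evalRingHom, eval_sub, eval_pow, eval_X, eval_one] at h
  have h' := Int.natAbs_dvd_natAbs.mpr h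
  rwa [show ((q : ℤ) ^ n - 1).natAbs = q ^ n - 1 by
    rw [show ((q : ℤ) ^ n - 1) = ((q ^ n - 1 : ℕ) : ℤ) by
      rw [Nat.cast_sub (Nat.one_le_pow _ _ (by omega))]; push_cast; ring, Int.natAbs_natCast]] at h'

theorem cast_pow_eq_one_of_dvd {q i r : ℕ} (hq : 1 ≤ q) (h : r ∣ q ^ i - 1) :
    (q : ZMod r) ^ i = 1 := by
  rwa [← ZMod.natCast_eq_zero_iff, Nat.cast_sub (Nat.one_le_pow _ _ hq), Nat.cast_pow, Nat.cast_one,
    sub_eq_zero] at h

theorem dvd_of_cast_pow_eq_one {q i r : ℕ} (hq : 1 ≤ q) (h : (q : ZMod r) ^ i = 1) :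
    r ∣ q ^ i - 1 := by
  rw [← ZMod.natCast_eq_zero_iff, Nat.cast_sub (Nat.one_le_pow _ _ hq), Nat.cast_pow, h,
    Nat.cast_one, sub_self]

/-- a non-primitive prime divisor of `Φ_n(q)` -/
theorem nonprim_prime {q n r i : ℕ} (hn : 0 < n) (hq : 1 < q) (hr : r.Prime) (hrE : r ∣ cycVal q n)
    (hi1 : 1 ≤ i) (hin : i < n) (hri : r ∣ q ^ i - 1) :
    ∃ j m : ℕ, 0 < j ∧ n = r ^ j * m ∧ ¬ r ∣ m ∧ m ∣ r - 1 ∧ (q : ZMod r) ^ m = 1 := by
  have := Fact.mk hr
  have hroot : IsRoot (cyclotomic n (ZMod r)) (q : ZMod r) :=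
    root_of_dvd (Int.natCast_dvd.mpr hrE)
  obtain ⟨j, m, hm, hnm⟩ := Nat.exists_eq_pow_mul_and_not_dvd hn.ne' r hr.ne_one
  have hmz : NeZero (m : ZMod r) := ⟨fun h => hm ((ZMod.natCast_eq_zero_iff _ _).mp h)⟩
  have hprim : IsPrimitiveRoot (q : ZMod r) m := by
    rw [← isRoot_cyclotomic_iff]
    rcases Nat.eq_zero_or_pos j with rfl | hj
    · simpa [hnm] using hroot
    · rw [hnm, cyclotomic_mul_prime_pow_eq (ZMod r) hm hj, IsRoot, eval_pow] at hroot
      exact eq_zero_of_pow_eq_zero hroot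
  have hm0 : 0 < m := Nat.pos_of_ne_zero fun h => hm (h ▸ dvd_zero r)
  rcases Nat.eq_zero_or_pos j with rfl | hj
  · exfalso
    obtain rfl : m = n := by rw [hnm, pow_zero, one_mul]
    have := Nat.le_of_dvd hi1 (hprim.dvd_of_pow_eq_one i (cast_pow_eq_one_of_dvd (by omega) hri))
    omega
  · refine ⟨j, m, hj, hnm, hm, ?_, hprim.pow_eq_one⟩
    exact hprim.dvd_of_pow_eq_one _ (ZMod.pow_card_sub_one_eq_one fun h => by
      have := hprim.pow_eq_one
      rw [h, zero_pow hm0.ne'] at this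
      exact zero_ne_one this)

theorem nonprim_sq {q n p : ℕ} (hn : 3 ≤ n) (hq : 1 < q) (hp : p.Prime) {j m : ℕ} (hj : 0 < j)
    (hnm : n = p ^ j * m) (hm : ¬ p ∣ m) (hmp : m ∣ p - 1) (hpow : (q : ZMod p) ^ m = 1) :
    ¬ p ^ 2 ∣ cycVal q n := by
  intro hd
  have hm0 : 0 < m := Nat.pos_of_ne_zero fun h => hm (h ▸ dvd_zero p)
  set d := p ^ (j - 1) * m with hddef
  have hdn : d * p = n := by
    rw [hddef, hnm, mul_right_comm, ← pow_succ, Nat.sub_add_cancel hj]
  have hd0 : 0 < d := by rw [hddef]; exact Nat.mul_pos (pow_pos hp.pos _) hm0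
  have hdlt : d < n := by rw [← hdn]; exact lt_mul_of_one_lt_right hd0 hp.one_lt
  have hdvd := map_dvd (evalRingHom (q : ℤ))
    (X_pow_sub_one_mul_cyclotomic_dvd_X_pow_sub_one_of_dvd ℤ
      (Nat.mem_properDivisors.mpr ⟨Dvd.intro p hdn, hdlt⟩))
  simp only [coe_evalRingHom, eval_mul, eval_sub, eval_pow, eval_X, eval_one] at hdvd
  set b := q ^ d with hb
  have hb2 : 1 < b := Nat.one_lt_pow hd0.ne' hq
  have hgeom : ((q : ℤ) ^ n - 1) = ((q : ℤ) ^ d - 1) * ((∑ i ∈ range p, b ^ i : ℕ) : ℤ) := by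
    push_cast
    rw [hb, Nat.cast_pow, mul_comm, geom_sum_mul, ← pow_mul, hdn]
  rw [hgeom] at hdvd
  have hne : ((q : ℤ) ^ d - 1) ≠ 0 := by
    have : (1 : ℤ) < (q : ℤ) ^ d := by exact_mod_cast hb2
    omega
  have hdiv : cycVal q n ∣ ∑ i ∈ range p, b ^ i :=
    Int.natAbs_dvd_natAbs.mpr ((mul_dvd_mul_iff_left hne).mp hdvd) |>.trans
      (by rw [Int.natAbs_natCast])
  have hbp : p ∣ b - 1 := by
    refine dvd_of_cast_pow_eq_one (by omega) ?_
    rw [hddef, mul_comm, pow_mul, hpow, one_pow]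
  refine sq_not_dvd_geom hp hb2.le hbp (fun e => ?_) (hd.trans hdiv)
  subst e
  obtain rfl : m = 1 := Nat.eq_one_of_dvd_one hmp
  have hj2 : 2 ≤ j := by
    by_contra hc
    obtain rfl : j = 1 := by omega
    omega
  obtain ⟨i, hi⟩ : ∃ i, d = 2 * i := ⟨2 ^ (j - 2), by
    rw [hddef, mul_one, show j - 1 = (j - 2) + 1 by omega, pow_succ, mul_comm]⟩
  have hodd : q % 2 = 1 := by
    have : b % 2 = 1 := by omega
    by_contra hev
    rw [hb, Nat.pow_mod, show q % 2 = 0 by omega, zero_pow hd0.ne'] at this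
    omega
  rw [hb, hi, pow_mul]
  have h4 : (q ^ 2) % 4 = 1 := by
    rw [Nat.pow_mod]
    have : q % 4 = 1 ∨ q % 4 = 3 := by omega
    rcases this with e | e <;> simp [e]
  have h1 : (q ^ 2) ^ i % 4 = 1 := by
    rw [Nat.pow_mod, h4, one_pow, Nat.one_mod_eq_one.mpr (by norm_num)]
  omega

theorem nonprim_unique {n p r j m j' m' : ℕ} (hp : p.Prime) (hr : r.Prime) (hj : 0 < j)
    (hnm : n = p ^ j * m) (hmp : m ∣ p - 1) (hj' : 0 < j') (hnm' : n = r ^ j' * m')
    (hmr : m' ∣ r - 1) : r = p := by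
  by_contra hne
  have h1 : r ∣ m := by
    have : r ∣ p ^ j * m := hnm ▸ hnm' ▸ (dvd_pow_self r hj'.ne').mul_right m'
    exact ((Nat.coprime_primes hr hp).mpr hne).pow_right j |>.dvd_of_dvd_mul_left this
  have h2' : p ∣ m' := by
    have : p ∣ r ^ j' * m' := hnm' ▸ hnm ▸ (dvd_pow_self p hj.ne').mul_right m
    exact ((Nat.coprime_primes hp hr).mpr (Ne.symm hne)).pow_right j' |>.dvd_of_dvd_mul_left this
  have := hp.two_le
  have := hr.two_le
  have := Nat.le_of_dvd (by omega) (h1.trans hmp)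
  have := Nat.le_of_dvd (by omega) (h2'.trans hmr)
  omega

/-- `Φ_n(q)` is a primitive divisor times at most one prime divisor of `n`. -/
theorem exists_prim_dvd {q n P : ℕ} (hn : 3 ≤ n) (hq : 1 < q)
    (hP : ∀ r : ℕ, r.Prime → r ∣ n → r ≤ P) (hP1 : 1 ≤ P) :
    ∃ m : ℕ, IsPrim q n m ∧ cycVal q n ≤ P * m := by
  have hEpos : 0 < cycVal q n :=
    Nat.pos_of_ne_zero fun h => by
      have := cycVal_dvd (n := n) hq
      rw [h, zero_dvd_iff] at this
      have : 1 < q ^ n := Nat.one_lt_pow (by omega) hq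
      omega
  by_cases hex : ∃ r i : ℕ, r.Prime ∧ r ∣ cycVal q n ∧ 1 ≤ i ∧ i < n ∧ r ∣ q ^ i - 1
  · obtain ⟨p, i, hp, hpE, hi1, hin, hpi⟩ := hex
    obtain ⟨j, m, hj, hnm, hm, hmp, hpow⟩ := nonprim_prime (by omega) hq hp hpE hi1 hin hpi
    have hsq := nonprim_sq hn hq hp hj hnm hm hmp hpow
    obtain ⟨M, hM⟩ := hpE
    have hpn : p ∣ n := hnm ▸ (dvd_pow_self p hj.ne').mul_right m
    refine ⟨M, ⟨?_, fun k hk1 hkn => ?_⟩, ?_⟩
    · exact (Dvd.intro_left p hM.symm).trans (cycVal_dvd hq)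
    · refine Nat.coprime_of_dvd fun r hr hrM hrk => ?_
      obtain ⟨j', m', hj', hnm', hm', hmr, -⟩ := nonprim_prime (by omega) hq hr
        (hM ▸ hrM.mul_left p) hk1 hkn hrk
      obtain rfl := nonprim_unique hp hr hj hnm hmp hj' hnm' hmr
      exact hsq (hM ▸ by rw [sq]; exact mul_dvd_mul_left r hrM)
    · rw [hM]; exact Nat.mul_le_mul_right _ (hP p hp hpn)
  · refine ⟨cycVal q n, ⟨cycVal_dvd hq, fun k hk1 hkn => ?_⟩, Nat.le_mul_of_pos_left _ hP1⟩
    exact Nat.coprime_of_dvd fun r hr hrE hrk => hex ⟨r, k, hr, hrE, hk1, hkn, hrk⟩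

theorem pow_le_cycVal {q p k X : ℕ} (hq : 1 < q) (hp : p.Prime)
    (hX : X * (q + 1) ≤ q ^ p - 1) : X ^ k.totient ≤ cycVal q (p * k) := by
  have hqR : (1 : ℝ) < q := by exact_mod_cast hq
  have hqp : (1 : ℝ) < (q : ℝ) ^ p := one_lt_pow₀ hqR hp.pos.ne'
  have hXR : (X : ℝ) * ((q : ℝ) + 1) ≤ (q : ℝ) ^ p - 1 := by
    have h1 : 1 ≤ q ^ p := Nat.one_le_pow _ _ (by omega)
    have : ((X * (q + 1) : ℕ) : ℝ) ≤ ((q ^ p - 1 : ℕ) : ℝ) := by exact_mod_cast hX
    rw [Nat.cast_sub h1] at this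
    push_cast at this
    exact this
  have hlo := sub_one_pow_totient_le_cyclotomic_eval (q := (q : ℝ) ^ p) hqp k
  suffices h : ((X : ℝ)) ^ k.totient ≤ (cycVal q (p * k) : ℝ) by exact_mod_cast h
  rw [cycVal_cast hq, mul_comm p k]
  have hmain : ((X : ℝ) * ((q : ℝ) + 1)) ^ k.totient ≤ ((q : ℝ) ^ p - 1) ^ k.totient :=
    pow_le_pow_left₀ (by positivity) hXR _
  by_cases hpk : p ∣ k
  · have hexp := congrArg (eval (q : ℝ)) (cyclotomic_expand_eq_cyclotomic hp hpk ℝ)
    rw [expand_eval] at hexp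
    rw [← hexp]
    refine le_trans ?_ (hmain.trans hlo)
    exact pow_le_pow_left₀ (by positivity)
      (le_mul_of_one_le_right (by positivity) (by linarith)) _
  · have hexp := congrArg (eval (q : ℝ)) (cyclotomic_expand_eq_cyclotomic_mul hp hpk ℝ)
    rw [expand_eval, eval_mul] at hexp
    have hup := cyclotomic_eval_le_add_one_pow_totient hqR k
    have hpos : (0 : ℝ) < (cyclotomic (k * p) ℝ).eval (q : ℝ) := cyclotomic_pos' _ hqR
    rw [mul_pow] at hmain
    have : (X : ℝ) ^ k.totient * ((q : ℝ) + 1) ^ k.totient ≤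
        (cyclotomic (k * p) ℝ).eval (q : ℝ) * ((q : ℝ) + 1) ^ k.totient := by
      refine hmain.trans (hlo.trans ?_)
      rw [hexp]
      exact mul_le_mul_of_nonneg_left hup hpos.le
    exact le_of_mul_le_mul_right this (by positivity)

/-- for `p ∣ k` the factor `q + 1` is not needed -/
theorem pow_le_cycVal_of_dvd {q p k : ℕ} (hq : 1 < q) (hp : p.Prime) (hpk : p ∣ k) :
    (q ^ p - 1) ^ k.totient ≤ cycVal q (p * k) := by
  have hqR : (1 : ℝ) < q := by exact_mod_cast hq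
  have hlo := sub_one_pow_totient_le_cyclotomic_eval (q := (q : ℝ) ^ p)
    (one_lt_pow₀ hqR hp.pos.ne') k
  suffices h : (((q ^ p - 1) ^ k.totient : ℕ) : ℝ) ≤ (cycVal q (p * k) : ℝ) by exact_mod_cast h
  rw [cycVal_cast hq, mul_comm p k, Nat.cast_pow, Nat.cast_sub (Nat.one_le_pow _ _ (by omega)),
    Nat.cast_pow, Nat.cast_one]
  have hexp := congrArg (eval (q : ℝ)) (cyclotomic_expand_eq_cyclotomic hp hpk ℝ)
  rw [expand_eval] at hexp
  rwa [← hexp]

theorem le_two_mul_totient_sq (m : ℕ) :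
    m ≤ 2 * m.totient ^ 2 ∧ (m % 2 = 1 → m ≤ m.totient ^ 2) := by
  induction m using Nat.recOnPrimeCoprime with
  | zero => simp
  | prime_pow p n hp =>
    rcases Nat.eq_zero_or_pos n with rfl | hn
    · simp
    rw [Nat.totient_prime_pow hp hn]
    obtain ⟨a, rfl⟩ : ∃ a, n = a + 1 := ⟨n - 1, by omega⟩
    simp only [Nat.add_sub_cancel, pow_succ]
    have hpa : 1 ≤ p ^ a := Nat.one_le_pow _ _ hp.pos
    refine ⟨?_, fun hodd => ?_⟩
    · have h2 : p ≤ 2 * ((p - 1) * (p - 1)) := by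
        obtain ⟨b, rfl⟩ : ∃ b, p = b + 2 := ⟨p - 2, by have := hp.two_le; omega⟩
        simp only [show b + 2 - 1 = b + 1 by omega]
        nlinarith
      calc p ^ a * p ≤ p ^ a * (2 * ((p - 1) * (p - 1))) := Nat.mul_le_mul_left _ h2
        _ ≤ (p ^ a * p ^ a) * (2 * ((p - 1) * (p - 1))) :=
          Nat.mul_le_mul_right _ (Nat.le_mul_of_pos_left _ hpa)
        _ = _ := by ring
    · have hp2 : p ≠ 2 := by rintro rfl; omega
      have h2 : p ≤ (p - 1) * (p - 1) := by
        obtain ⟨b, rfl⟩ : ∃ b, p = b + 3 := ⟨p - 3, by have := hp.two_le; omega⟩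
        simp only [show b + 3 - 1 = b + 2 by omega]
        nlinarith
      calc p ^ a * p ≤ p ^ a * ((p - 1) * (p - 1)) := Nat.mul_le_mul_left _ h2
        _ ≤ (p ^ a * p ^ a) * ((p - 1) * (p - 1)) :=
          Nat.mul_le_mul_right _ (Nat.le_mul_of_pos_left _ hpa)
        _ = _ := by ring
  | coprime a b _ _ hab iha ihb =>
    rw [Nat.totient_mul hab, mul_pow]
    refine ⟨?_, fun hodd => ?_⟩
    · by_cases hao : a % 2 = 1
      · calc a * b ≤ a.totient ^ 2 * (2 * b.totient ^ 2) := Nat.mul_le_mul (iha.2 hao) ihb.1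
          _ = _ := by ring
      · have hbo : b % 2 = 1 := by
          by_contra hbe
          have h2 : 2 ∣ Nat.gcd a b := Nat.dvd_gcd (by omega) (by omega)
          rw [hab] at h2
          omega
        calc a * b ≤ (2 * a.totient ^ 2) * b.totient ^ 2 := Nat.mul_le_mul iha.1 (ihb.2 hbo)
          _ = _ := by ring
    · rw [Nat.mul_mod] at hodd
      have : a % 2 = 1 ∧ b % 2 = 1 := by
        rcases Nat.mod_two_eq_zero_or_one a with h | h <;>
          rcases Nat.mod_two_eq_zero_or_one b with h' | h' <;> simp_all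
      exact Nat.mul_le_mul (iha.2 this.1) (ihb.2 this.2)

theorem quarter_sq_le_pow {X f : ℕ} (hX : 4 ≤ X) : (f + 2) ^ 2 ≤ 4 * X ^ f := by
  induction f with
  | zero => simp
  | succ f ih =>
    rw [pow_succ X f]
    have : 4 * X ^ f * 4 ≤ 4 * X ^ f * X := Nat.mul_le_mul_left _ hX
    have h3 : (f + 1 + 2) ^ 2 ≤ 4 * (f + 2) ^ 2 :=
      (Nat.pow_le_pow_left (show f + 1 + 2 ≤ 2 * (f + 2) by omega) 2).trans (by rw [mul_pow]; norm_num)
    nlinarith

/-- the growth lemma -/
theorem bound_big {X p k : ℕ} (hk : 2 ≤ k.totient) (hX : 4 ≤ X)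
    (hX2 : 8 * (p * (3 * p + 1)) ≤ X ^ 2) : p * (3 * (p * k) + 1) ≤ X ^ k.totient := by
  obtain ⟨f, hf⟩ : ∃ f, k.totient = f + 2 := ⟨k.totient - 2, by omega⟩
  have h1 := (le_two_mul_totient_sq k).1
  have h2 := quarter_sq_le_pow (f := f) hX
  rw [hf] at h1 ⊢
  have hk0 : 1 ≤ k := Nat.totient_pos.mp (by omega)
  calc p * (3 * (p * k) + 1) ≤ p * (3 * (p * k) + k) :=
        Nat.mul_le_mul_left _ (by omega)
    _ = p * (3 * p + 1) * k := by ring
    _ ≤ p * (3 * p + 1) * (2 * (f + 2) ^ 2) := Nat.mul_le_mul_left _ h1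
    _ ≤ p * (3 * p + 1) * (2 * (4 * X ^ f)) := by gcongr
    _ = 8 * (p * (3 * p + 1)) * X ^ f := by ring
    _ ≤ X ^ 2 * X ^ f := Nat.mul_le_mul_right _ hX2
    _ = X ^ (f + 2) := by ring

theorem totient_le_one {k : ℕ} (hk : k.totient < 2) : k ≤ 2 := by
  have := (le_two_mul_totient_sq k).1
  interval_cases k.totient <;> omega

theorem two_pow_ge_a {p : ℕ} (hp : 13 ≤ p) : 2 * p * (6 * p + 1) + 1 ≤ 2 ^ (p - 1) := by
  induction p, hp using Nat.le_induction with
  | base => norm_num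
  | succ k hk ih =>
    rw [show k + 1 - 1 = (k - 1) + 1 by omega, pow_succ]
    nlinarith

theorem two_pow_ge_b {p : ℕ} (hp : 11 ≤ p) : 12 * p + 1 ≤ 2 ^ (p - 1) := by
  induction p, hp using Nat.le_induction with
  | base => norm_num
  | succ k hk ih =>
    rw [show k + 1 - 1 = (k - 1) + 1 by omega, pow_succ]
    omega

theorem mul_le_pow_sub {q p c b : ℕ} (hbq : b ≤ q) (hp : 1 ≤ p)
    (h : c * (q + 1) + 1 ≤ b ^ (p - 1) * q) : c * (q + 1) ≤ q ^ p - 1 := by
  have h1 : b ^ (p - 1) * q ≤ q ^ p := by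
    calc b ^ (p - 1) * q ≤ q ^ (p - 1) * q := Nat.mul_le_mul_right _ (Nat.pow_le_pow_left hbq _)
      _ = q ^ p := by rw [← pow_succ, Nat.sub_add_cancel hp]
  omega

/-- the smooth, small `q` case -/
theorem bound_smooth {q n : ℕ} (hn : 40 < n) (hq : 1 < q)
    (hsm : ∀ r : ℕ, r.Prime → r ∣ n → r ≤ 5) : 5 * (3 * n + 1) ≤ cycVal q n := by
  have hsub : n.primeFactors ⊆ {2, 3, 5} := fun r hr => by
    obtain ⟨hr, hrn, -⟩ := Nat.mem_primeFactors.mp hr
    have := hsm r hr hrn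
    have := hr.two_le
    interval_cases r <;> first | decide | exact absurd hr (by norm_num)
  have hn4 : n ≤ 4 * n.totient := by
    have h := Nat.totient_mul_prod_primeFactors n
    have hmem : n.primeFactors ∈ ({2, 3, 5} : Finset ℕ).powerset := Finset.mem_powerset.mpr hsub
    rw [show ({2, 3, 5} : Finset ℕ).powerset
      = {∅, {2}, {3}, {5}, {2, 3}, {2, 5}, {3, 5}, {2, 3, 5}} from by decide] at hmem
    simp only [Finset.mem_insert, Finset.mem_singleton] at hmem
    rcases hmem with e | e | e | e | e | e | e | e <;> rw [e] at h <;> norm_num at h <;> omega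
  obtain ⟨r, hr, hr2⟩ : ∃ r : ℕ, r.Prime ∧ r * r ∣ n := by
    by_contra hc
    push Not at hc
    have hsf : Squarefree n := Nat.squarefree_iff_prime_squarefree.mpr hc
    have h := Finset.prod_le_prod_of_subset_of_one_le' (f := fun r : ℕ => r) hsub
      (fun r hr _ => by simp only [Finset.mem_insert, Finset.mem_singleton] at hr; omega)
    rw [Nat.prod_primeFactors_of_squarefree hsf] at h
    norm_num at h
    omega
  obtain ⟨c, hc⟩ := hr2
  have hpk : r ∣ r * c := dvd_mul_right r c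
  have hE : (q ^ r - 1) ^ (r * c).totient ≤ cycVal q n := by
    rw [hc, mul_assoc]; exact pow_le_cycVal_of_dvd hq hr hpk
  have hφ : n.totient = r * (r * c).totient := by
    rw [hc, mul_assoc]
    exact Nat.totient_mul_of_prime_of_dvd hr hpk
  have hbase : 3 ^ r ≤ (q ^ r - 1) ^ 2 := by
    have h2 : 3 ^ r ≤ (2 ^ r - 1) ^ 2 := by
      have := hr.two_le
      clear * - this
      induction r, this using Nat.le_induction with
      | base => norm_num
      | succ k hk ih =>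
        calc 3 ^ (k + 1) = 3 ^ k * 3 := pow_succ 3 k
          _ ≤ (2 ^ k - 1) ^ 2 * 2 ^ 2 := Nat.mul_le_mul ih (by norm_num)
          _ = ((2 ^ k - 1) * 2) ^ 2 := by ring
          _ ≤ (2 ^ (k + 1) - 1) ^ 2 := Nat.pow_le_pow_left (by rw [pow_succ]; omega) 2
    exact h2.trans (Nat.pow_le_pow_left (Nat.sub_le_sub_right (Nat.pow_le_pow_left hq r) 1) 2)
  obtain ⟨f, hf⟩ := Nat.totient_even (show 2 < n by omega)
  have hE2 : (3 ^ f) ^ 2 ≤ (cycVal q n) ^ 2 := by
    calc (3 ^ f) ^ 2 = (3 ^ r) ^ (r * c).totient := by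
          rw [← pow_mul, ← pow_mul, ← hφ, hf, mul_two]
      _ ≤ ((q ^ r - 1) ^ 2) ^ (r * c).totient := Nat.pow_le_pow_left hbase _
      _ = ((q ^ r - 1) ^ (r * c).totient) ^ 2 := by rw [← pow_mul, ← pow_mul, mul_comm]
      _ ≤ _ := Nat.pow_le_pow_left hE 2
  have hgrow : 5 * (24 * f + 1) ≤ 3 ^ f := by
    have hf6 : 6 ≤ f := by omega
    clear * - hf6
    induction f, hf6 using Nat.le_induction with
    | base => norm_num
    | succ k hk ih => rw [pow_succ]; omega
  calc 5 * (3 * n + 1) ≤ 5 * (24 * f + 1) := by omega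
    _ ≤ 3 ^ f := hgrow
    _ ≤ _ := (Nat.pow_le_pow_iff_left two_ne_zero).mp hE2

/-- a primitive divisor of size at least `3 * n + 1` outside a finite range -/
theorem exists_prim_big {q n : ℕ} (hn : 3 ≤ n) (hq : 1 < q)
    (hsmall : ¬ ((q ≤ 8 ∧ n ≤ 22) ∨ (q ≤ 4 ∧ n ≤ 40))) :
    ∃ m : ℕ, IsPrim q n m ∧ 3 * n + 1 ≤ m := by
  have hne : n.primeFactors.Nonempty := Nat.nonempty_primeFactors.mpr (by omega)
  set P := n.primeFactors.max' hne with hPdef
  have hPmem := n.primeFactors.max'_mem hne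
  rw [← hPdef] at hPmem
  obtain ⟨hPp, hPn, -⟩ := Nat.mem_primeFactors.mp hPmem
  have hPmax : ∀ r : ℕ, r.Prime → r ∣ n → r ≤ P := fun r hr hrn =>
    n.primeFactors.le_max' r (Nat.mem_primeFactors.mpr ⟨hr, hrn, by omega⟩)
  obtain ⟨m, hm, hEm⟩ := exists_prim_dvd hn hq hPmax hPp.one_le
  refine ⟨m, hm, le_of_mul_le_mul_left ?_ hPp.pos⟩
  refine le_trans ?_ hEm
  obtain ⟨k, hk⟩ := hPn
  have hk0 : 0 < k := Nat.pos_of_ne_zero fun h => by subst h; simp at hk; omega
  clear_value P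
  rcases hPp.two_le.eq_or_lt with rfl | hP3
  · -- `n` is a power of two
    have hpk : 2 ∣ k := by
      by_contra hodd
      obtain ⟨r, hr, hrk⟩ := Nat.exists_prime_and_dvd (show k ≠ 1 by omega)
      have := hPmax r hr (hk ▸ hrk.mul_left 2)
      obtain rfl : r = 2 := by have := hr.two_le; omega
      exact hodd hrk
    have hE := pow_le_cycVal_of_dvd hq Nat.prime_two hpk
    rw [← hk] at hE
    refine le_trans ?_ hE
    rcases Nat.lt_or_ge k.totient 2 with hφ | hφ
    · have := totient_le_one hφ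
      obtain rfl : k = 2 := by omega
      have h6 : 9 ≤ q := by omega
      have : 81 ≤ q ^ 2 := by nlinarith
      rw [Nat.totient_two, pow_one, hk]
      omega
    · by_cases h4 : q < 4
      · have hsm := bound_smooth (n := n) (q := q) (by omega) hq
          (fun r hr hrn => (hPmax r hr hrn).trans (by norm_num))
        rw [hk]
        have hX : 3 ≤ q ^ 2 - 1 := by
          have : 4 ≤ q ^ 2 := by nlinarith
          omega
        obtain ⟨f, hf⟩ : ∃ f, k.totient = f := ⟨_, rfl⟩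
        have hkφ : k ≤ 4 * k.totient := by
          obtain ⟨j, -, hj⟩ := (Nat.dvd_prime_pow Nat.prime_two).mp
            (show k ∣ 2 ^ k.primeFactorsList.length from dvd_of_eq
              (Nat.eq_prime_pow_of_unique_prime_dvd (by omega) fun {r} hr hrk => by
                have := hPmax r hr (hk ▸ hrk.mul_left 2)
                have := hr.two_le
                omega))
          subst hj
          rcases Nat.eq_zero_or_pos j with rfl | hj0
          · simp
          · rw [Nat.totient_prime_pow Nat.prime_two hj0]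
            obtain ⟨i, rfl⟩ : ∃ i, j = i + 1 := ⟨j - 1, by omega⟩
            simp only [Nat.add_sub_cancel, pow_succ]
            omega
        calc 2 * (3 * (2 * k) + 1) ≤ 2 * (24 * k.totient + 1) := by omega
          _ ≤ 3 ^ k.totient := by
            have h6 : 5 ≤ k.totient := by omega
            clear * - h6
            generalize k.totient = f at *
            induction f, h6 using Nat.le_induction with
            | base => norm_num
            | succ i hi ih => rw [pow_succ]; omega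
          _ ≤ _ := Nat.pow_le_pow_left hX _
      · have h16 : 16 ≤ q ^ 2 := by nlinarith
        rw [hk]
        exact bound_big hφ (by omega)
          (le_trans (by norm_num) (Nat.pow_le_pow_left (show 15 ≤ q ^ 2 - 1 by omega) 2))
  rcases Nat.lt_or_ge k.totient 2 with hφ | hφ
  · -- `n = P` or `n = 2 * P`
    have hk2 := totient_le_one hφ
    have hφ1 : k.totient = 1 := by
      have := Nat.totient_pos.mpr hk0
      omega
    have hn2 : n ≤ P * 2 := hk ▸ Nat.mul_le_mul_left P hk2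
    have hX : P * (6 * P + 1) * (q + 1) ≤ q ^ P - 1 := by
      rcases Nat.lt_or_ge P 13 with h13 | h13
      · interval_cases P
        all_goals first
          | (norm_num at hPp; done)
          | exact mul_le_pow_sub (b := 9) (by omega) (by norm_num) (by norm_num; omega)
      · refine mul_le_pow_sub (b := 2) hq hPp.one_le ?_
        calc P * (6 * P + 1) * (q + 1) + 1 ≤ (2 * P * (6 * P + 1) + 1) * q := by
              have hA : P * (6 * P + 1) * 2 ≤ P * (6 * P + 1) * q := Nat.mul_le_mul_left _ hq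
              nlinarith
          _ ≤ _ := Nat.mul_le_mul_right _ (two_pow_ge_a h13)
    have hE := pow_le_cycVal (k := k) hq hPp hX
    rw [← hk, hφ1, pow_one] at hE
    refine le_trans ?_ hE
    exact Nat.mul_le_mul_left _ (by omega)
  · by_cases hsm : P ≤ 5 ∧ q ≤ 4
    · have h := bound_smooth (n := n) (by omega) hq (fun r hr hrn => (hPmax r hr hrn).trans hsm.1)
      exact le_trans (Nat.mul_le_mul_right _ hsm.1) h
    have key : ∀ X : ℕ, 4 ≤ X → 8 * (P * (3 * P + 1)) ≤ X ^ 2 → X * (q + 1) ≤ q ^ P - 1 →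
        P * (3 * n + 1) ≤ cycVal q n := by
      intro X h4 h8 hX
      have hE := pow_le_cycVal (k := k) hq hPp hX
      rw [← hk] at hE
      exact le_trans (hk ▸ bound_big hφ h4 h8) hE
    rcases Nat.lt_or_ge P 11 with h11 | h11
    · interval_cases P
      all_goals try (norm_num at hPp; done)
      · exact key 16 (by norm_num) (by norm_num)
          (mul_le_pow_sub (b := 5) (by omega) (by norm_num) (by norm_num; omega))
      · exact key 26 (by norm_num) (by norm_num)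
          (mul_le_pow_sub (b := 5) (by omega) (by norm_num) (by norm_num; omega))
      · exact key 36 (by norm_num) (by norm_num)
          (mul_le_pow_sub (b := 2) hq (by norm_num) (by norm_num; omega))
    · refine key (6 * P) (by omega) (by nlinarith) (mul_le_pow_sub (b := 2) hq hPp.one_le ?_)
      calc 6 * P * (q + 1) + 1 ≤ (12 * P + 1) * q := by nlinarith
        _ ≤ _ := Nat.mul_le_mul_right _ (two_pow_ge_b h11)

end Cfsg.Agent.Lib.PrimPartBound
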