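import Cfsg.Agent.Lib.PrimPartBound

/-! Lower bound for the primitive part of `q ^ n - 1`: the finite range. -/

set_option autoImplicit false

namespace Cfsg.Agent.Lib.PrimPartBound

/-- the exceptional pairs -/
def exc : List (ℕ × ℕ) :=
  [(2, 6), (2, 4), (2, 10), (2, 12), (2, 18), (3, 4), (3, 6), (5, 6), (2, 3), (2, 8), (2, 20), (4, 3), (4, 6)]

/-- remove from `q ^ n - 1` everything shared with `q ^ i - 1`, `i < n` -/
def strip (q n : ℕ) : ℕ :=
  (List.range n).foldl (fun x i => if i = 0 then x else x / Nat.gcd x ((q ^ i - 1) ^ 170)) (q ^ n - 1)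

/-- the certificate -/
def good (q n : ℕ) : Bool :=
  ((q ^ n - 1) % strip q n == 0) &&
    (List.range n).all (fun i => i == 0 || Nat.gcd (strip q n) (q ^ i - 1) == 1) &&
      decide (3 * n + 1 ≤ strip q n)

/-- the finite range -/
def smallOK : Bool :=
  (List.range 9).all fun q => q ≤ 1 || (List.range 41).all fun n =>
    n ≤ 2 || !(decide ((q ≤ 8 ∧ n ≤ 22) ∨ (q ≤ 4 ∧ n ≤ 40))) || exc.contains (q, n) || good q n

set_option maxRecDepth 100000 in
theorem smallOK_true : smallOK = true := by decide +kernel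

theorem good_spec {q n : ℕ} (h : good q n = true) :
    ∃ m : ℕ, IsPrim q n m ∧ 3 * n + 1 ≤ m := by
  simp only [good, Bool.and_eq_true, beq_iff_eq, List.all_eq_true, List.mem_range,
    Bool.or_eq_true, decide_eq_true_eq] at h
  obtain ⟨⟨h1, h2⟩, h3⟩ := h
  exact ⟨_, ⟨Nat.dvd_of_mod_eq_zero h1, fun i hi hin => (h2 i hin).resolve_left (by omega)⟩, h3⟩

/-- Feit: a primitive divisor of size at least `3 * n + 1` outside thirteen pairs. -/
theorem exists_prim {q n : ℕ} (hn : 3 ≤ n) (hq : 1 < q) (he : (q, n) ∉ exc) :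
    ∃ m : ℕ, IsPrim q n m ∧ 3 * n + 1 ≤ m := by
  by_cases hs : (q ≤ 8 ∧ n ≤ 22) ∨ (q ≤ 4 ∧ n ≤ 40)
  · have h := smallOK_true
    simp only [smallOK, List.all_eq_true, List.mem_range, Bool.or_eq_true, decide_eq_true_eq,
      Bool.not_eq_true', decide_eq_false_iff_not, List.contains_iff_mem] at h
    have h' := (h q (by omega)).resolve_left (by omega) n (by omega)
    rcases h' with ((h' | h') | h') | h'
    · omega
    · exact absurd hs h'
    · exact absurd h' he
    · exact good_spec h'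
  · exact exists_prim_big hn hq hs

/-- a certificate bounding every primitive divisor -/
theorem prim_dvd {q n m M : ℕ} (hm : IsPrim q n m)
    (h : q ^ n - 1 ∣ M * (∏ i ∈ Finset.Ico 1 n, (q ^ i - 1)) ^ 2) : m ∣ M := by
  have hc : Nat.Coprime m ((∏ i ∈ Finset.Ico 1 n, (q ^ i - 1)) ^ 2) :=
    (Nat.Coprime.prod_right fun i hi => hm.2 i (Finset.mem_Ico.mp hi).1 (Finset.mem_Ico.mp hi).2).pow_right 2
  exact hc.dvd_of_dvd_mul_right (hm.1.trans h)

/-- a primitive divisor above `n + 1` gives a large primitive prime -/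
theorem exists_large_prime {q n m : ℕ} (hn : 0 < n) (hq : 1 < q) (hm : IsPrim q n m)
    (hbig : n + 1 < m) :
    ∃ p : ℕ, p.Prime ∧ p ∣ q ^ n - 1 ∧ (∀ i : ℕ, 1 ≤ i → i < n → ¬ p ∣ q ^ i - 1) ∧
      (n + 1 < p ∨ p ^ 2 ∣ q ^ n - 1) := by
  have hord : ∀ r : ℕ, r.Prime → r ∣ m →
      r ∣ q ^ n - 1 ∧ (∀ i : ℕ, 1 ≤ i → i < n → ¬ r ∣ q ^ i - 1) ∧ n + 1 ≤ r := by
    intro r hr hrm
    have h1 := hrm.trans hm.1
    have h2 : ∀ i : ℕ, 1 ≤ i → i < n → ¬ r ∣ q ^ i - 1 := fun i hi hin hd =>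
      hr.ne_one (Nat.eq_one_of_dvd_coprimes (hm.2 i hi hin) hrm hd)
    refine ⟨h1, h2, ?_⟩
    by_contra hlt
    have := Fact.mk hr
    have hq0 : (q : ZMod r) ≠ 0 := by
      intro h
      have hn1 := cast_pow_eq_one_of_dvd (by omega) h1
      rw [h, zero_pow (by omega)] at hn1
      exact zero_ne_one hn1
    have hfer := ZMod.pow_card_sub_one_eq_one hq0
    exact h2 (r - 1) (by have := hr.two_le; omega) (by omega)
      (dvd_of_cast_pow_eq_one (by omega) hfer)
  by_contra hno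
  push Not at hno
  have hall : ∀ r : ℕ, r.Prime → r ∣ m → r = n + 1 := fun r hr hrm => by
    obtain ⟨h1, h2, h3⟩ := hord r hr hrm
    have := (hno r hr h1 h2).1
    omega
  obtain ⟨r, hr, hrm⟩ := Nat.exists_prime_and_dvd (show m ≠ 1 by omega)
  have hrn := hall r hr hrm
  have hmr := Nat.eq_prime_pow_of_unique_prime_dvd (show m ≠ 0 by omega)
    (fun {s} hs hsm => (hall s hs hsm).trans hrn.symm)
  have hsq : ¬ r ^ 2 ∣ m := fun h =>
    (hno r hr (hord r hr hrm).1 (hord r hr hrm).2.1).2 (h.trans hm.1)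
  rcases Nat.lt_or_ge m.primeFactorsList.length 2 with h | h
  · interval_cases hl : m.primeFactorsList.length
    · rw [pow_zero] at hmr; omega
    · rw [pow_one] at hmr; omega
  · exact hsq ((pow_dvd_pow r h).trans (dvd_of_eq hmr.symm))

end Cfsg.Agent.Lib.PrimPartBound
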