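import Mathlib

/-! Squares of sign sums: for a function `ε : G → ℤ` with `ε (x * w) = β x w * ε x * ε w`, `β`
multiplicative in the first variable, `(∑ ε)²` is `0` or `|G| · |R|`, `R` the radical of `β`. -/

set_option autoImplicit false

namespace Cfsg.Agent.Lib.SignSum

variable {G : Type*} [Group G] [Fintype G]

theorem sq_sum (ε : G → ℤ) (β : G → G → ℤ) (R : Subgroup G)
    (hε : ∀ x w, ε (x * w) = β x w * ε x * ε w) (hε2 : ∀ x, ε x * ε x = 1)
    (hl : ∀ x y w, β (x * y) w = β x w * β y w)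
    (hR : ∀ w, w ∈ R ↔ ∀ x, β x w = 1) :
    (∑ x, ε x) ^ 2 = 0 ∨ (∑ x, ε x) ^ 2 = (Fintype.card G : ℤ) * Nat.card R := by
  classical
  have hχ : ∀ w, ∑ x, β x w = if w ∈ R then (Fintype.card G : ℤ) else 0 := by
    intro w
    by_cases hw : w ∈ R
    · rw [if_pos hw, Finset.sum_congr rfl (fun x _ => (hR w).mp hw x), Finset.sum_const, Finset.card_univ]
      simp
    · rw [if_neg hw]
      rw [hR] at hw
      push Not at hw
      obtain ⟨y, hy⟩ := hw
      have h : ∑ x, β x w = β y w * ∑ x, β x w := by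
        conv_lhs => rw [← Equiv.sum_comp (Equiv.mulLeft y) (fun x => β x w)]
        rw [Finset.mul_sum]
        exact Finset.sum_congr rfl (fun x _ => hl y x w)
      have : (β y w - 1) * ∑ x, β x w = 0 := by linarith [sub_mul (β y w) 1 (∑ x, β x w)]
      rcases mul_eq_zero.mp this with h0 | h0
      · exact absurd (by linarith) hy
      · exact h0
  have hsq : (∑ x, ε x) ^ 2 = (Fintype.card G : ℤ) * ∑ w : R, ε w := by
    calc (∑ x, ε x) ^ 2 = ∑ x, ∑ w, ε x * ε (x * w) := by
          rw [sq, Finset.sum_mul]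
          refine Finset.sum_congr rfl (fun x _ => ?_)
          rw [Finset.mul_sum, ← Equiv.sum_comp (Equiv.mulLeft x)]
          rfl
      _ = ∑ x, ∑ w, β x w * ε w := by
          refine Finset.sum_congr rfl (fun x _ => Finset.sum_congr rfl (fun w _ => ?_))
          rw [hε, ← mul_assoc, ← mul_assoc, mul_comm (ε x) (β x w), mul_assoc (β x w), hε2, mul_one]
      _ = ∑ w, (∑ x, β x w) * ε w := by rw [Finset.sum_comm]; simp [Finset.sum_mul]
      _ = ∑ w, if w ∈ R then (Fintype.card G : ℤ) * ε w else 0 := by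
          refine Finset.sum_congr rfl (fun w _ => ?_)
          rw [hχ]; split_ifs <;> simp
      _ = (Fintype.card G : ℤ) * ∑ w : R, ε w := by
          rw [← Finset.sum_filter, Finset.mul_sum]
          exact Finset.sum_subtype _ (by simp) _
  rw [hsq]
  have hmul : ∀ u w : R, ε ↑(u * w) = ε u * ε w := fun u w => by
    rw [Subgroup.coe_mul, hε, (hR w).mp w.2 u, one_mul]
  by_cases hall : ∀ w : R, ε w = 1
  · right
    rw [Finset.sum_congr rfl (fun w _ => hall w), Finset.sum_const, Finset.card_univ, Nat.card_eq_fintype_card]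
    simp
  · left
    push Not at hall
    obtain ⟨y, hy⟩ := hall
    have h : ∑ w : R, ε w = ε y * ∑ w : R, ε w := by
      conv_lhs => rw [← Equiv.sum_comp (Equiv.mulLeft y) (fun w : R => ε w)]
      rw [Finset.mul_sum]
      exact Finset.sum_congr rfl (fun w _ => hmul y w)
    have : (ε y - 1) * ∑ w : R, ε w = 0 := by linarith [sub_mul (ε y) 1 (∑ w : R, ε w)]
    rcases mul_eq_zero.mp this with h0 | h0
    · exact absurd (by linarith) hy
    · rw [h0, mul_zero]

end Cfsg.Agent.Lib.SignSum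

namespace Cfsg.Agent.Lib.SignSum

variable {G : Type*} [Group G] [Fintype G]

/-- If moreover `ε = 1` on the radical, the sum does not vanish. -/
theorem sq_sum_ne_zero (ε : G → ℤ) (β : G → G → ℤ) (R : Subgroup G)
    (hε : ∀ x w, ε (x * w) = β x w * ε x * ε w) (hε2 : ∀ x, ε x * ε x = 1)
    (hl : ∀ x y w, β (x * y) w = β x w * β y w)
    (hR : ∀ w, w ∈ R ↔ ∀ x, β x w = 1) (h1 : ∀ w ∈ R, ε w = 1) :
    (∑ x, ε x) ≠ 0 := by
  intro h0
  have hsum : ∑ x, ∑ w, β x w * ε w = (0 : ℤ) := by
    calc ∑ x, ∑ w, β x w * ε w = ∑ x, ∑ w, ε x * ε (x * w) := by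
          refine Finset.sum_congr rfl (fun x _ => Finset.sum_congr rfl (fun w _ => ?_))
          rw [hε, ← mul_assoc, ← mul_assoc, mul_comm (ε x) (β x w), mul_assoc (β x w), hε2, mul_one]
      _ = ∑ x, ε x * ∑ w, ε w := by
          refine Finset.sum_congr rfl (fun x _ => ?_)
          rw [← Finset.mul_sum]
          exact congrArg _ (Equiv.sum_comp (Equiv.mulLeft x) ε)
      _ = 0 := by simp [h0]
  classical
  have hχ : ∀ w, w ∉ R → ∑ x, β x w = 0 := by
    intro w hw
    rw [hR] at hw
    push Not at hw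
    obtain ⟨y, hy⟩ := hw
    have h : ∑ x, β x w = β y w * ∑ x, β x w := by
      conv_lhs => rw [← Equiv.sum_comp (Equiv.mulLeft y) (fun x => β x w)]
      rw [Finset.mul_sum]
      exact Finset.sum_congr rfl (fun x _ => hl y x w)
    rcases mul_eq_zero.mp (show (β y w - 1) * ∑ x, β x w = 0 by linarith [sub_mul (β y w) 1 (∑ x, β x w)]) with h2 | h2
    · exact absurd (by linarith) hy
    · exact h2
  rw [Finset.sum_comm] at hsum
  have h2 : ∀ w, ∑ x, β x w * ε w = if w ∈ R then (Fintype.card G : ℤ) else 0 := by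
    intro w
    rw [← Finset.sum_mul]
    by_cases hw : w ∈ R
    · rw [if_pos hw, h1 w hw, mul_one, Finset.sum_congr rfl (fun x _ => (hR w).mp hw x)]
      simp
    · rw [if_neg hw, hχ w hw, zero_mul]
  rw [Finset.sum_congr rfl (fun w _ => h2 w), ← Finset.sum_filter, Finset.sum_const, nsmul_eq_mul] at hsum
  have hpos : 0 < (Finset.univ.filter (· ∈ R)).card :=
    Finset.card_pos.mpr ⟨1, by simp [one_mem]⟩
  have : (0 : ℤ) < ((Finset.univ.filter (· ∈ R)).card : ℤ) * Fintype.card G :=
    mul_pos (by exact_mod_cast hpos) (by exact_mod_cast Fintype.card_pos)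
  linarith

end Cfsg.Agent.Lib.SignSum
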