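import Mathlib
import Cfsg.Agent.Lib.SmallSimple.Basic
import Cfsg.Agent.Lib.Involution.Basic
import Cfsg.Agent.Lib.Involution.IndexTwo
import Cfsg.Agent.Lib.Struct4.SylowSmall
import Cfsg.Agent.Lib.Struct4.SylowParts

/-!
No finite group has exactly 21 Sylow 5-subgroups.
-/

set_option autoImplicit false

namespace Cfsg.Agent.Lib.SylowTwentyOne

open Equiv Equiv.Perm MulAction

section perm

variable {α : Type*} [Fintype α] [DecidableEq α]

/-- An even involutive permutation moves a multiple of 4 points. -/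
theorem four_dvd_support {σ : Perm α} (h2 : σ ^ 2 = 1) (hs : sign σ = 1) : 4 ∣ σ.support.card := by
  have hall : ∀ n ∈ σ.cycleType, n = 2 := fun n hn => by
    have h := (dvd_of_mem_cycleType hn).trans (orderOf_dvd_of_pow_eq_one h2)
    have := two_le_of_mem_cycleType hn
    have := Nat.le_of_dvd two_pos h
    omega
  have hsum : σ.cycleType.sum = 2 * σ.cycleType.card := by
    rw [Multiset.eq_replicate_card.2 hall]; simp [mul_comm]
  rw [sign_of_cycleType, hsum] at hs
  have hev : Even (σ.cycleType.card) := by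
    by_contra h
    rw [Nat.not_even_iff_odd] at h
    obtain ⟨k, hk⟩ := h
    rw [hk, (by omega : 2 * (2 * k + 1) + (2 * k + 1) = 2 * (3 * k + 1) + 1), pow_succ, pow_mul] at hs
    simp at hs
  obtain ⟨k, hk⟩ := hev
  rw [← sum_cycleType, hsum, hk]
  exact ⟨k, by ring⟩

/-- A permutation of 21 points of order `2^(k+2)` fixing a point, whose power of order 2 fixes
only one point, is odd. -/
theorem sign_ne_one (h21 : Fintype.card α = 21) {σ : Perm α} {k : ℕ} (ho : orderOf σ = 2 ^ (k + 2))
    (a : α) (ha : σ a = a) (hfix : ∀ b, (σ ^ 2 ^ (k + 1)) b = b → b = a) : sign σ ≠ 1 := by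
  have hall : ∀ n ∈ σ.cycleType, n = 2 ^ (k + 2) := fun n hn => by
    have h := dvd_of_mem_cycleType hn
    rw [ho] at h
    obtain ⟨j, hj, rfl⟩ := (Nat.dvd_prime_pow Nat.prime_two).1 h
    by_contra hne
    have hj' : 2 ^ j ∣ 2 ^ (k + 1) := pow_dvd_pow 2 (by
      rcases eq_or_lt_of_le hj with rfl | h
      · exact absurd rfl hne
      · omega)
    rw [cycleType_def, Multiset.mem_map] at hn
    obtain ⟨c, hc, hcn⟩ := hn
    rw [Function.comp_apply] at hcn
    obtain ⟨hcyc, hcσ⟩ := mem_cycleFactorsFinset_iff.1 hc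
    obtain ⟨b, hb⟩ := hcyc.nonempty_support
    have hb' : (σ ^ 2 ^ (k + 1)) b = b := by
      have hco : cycleOf σ b = c := (cycle_is_cycleOf hb hc).symm
      rw [← cycleOf_pow_apply_self, hco, orderOf_dvd_iff_pow_eq_one.1 (by rw [hcyc.orderOf, hcn]; exact hj')]
      rfl
    have := hfix b hb'
    subst this
    have := (mem_support.1 hb)
    rw [hcσ b hb] at this
    exact this ha
  have hrep := Multiset.eq_replicate_card.2 hall
  have hsupp : σ.support = Finset.univ.erase a := by
    ext b
    simp only [mem_support, Finset.mem_erase, Finset.mem_univ, and_true]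
    exact ⟨fun h hb => h (hb ▸ ha), fun hb h => hb (hfix b (pow_apply_eq_self_of_apply_eq_self h _))⟩
  have hsum : σ.cycleType.card * 2 ^ (k + 2) = 20 := by
    have h := sum_cycleType σ
    rw [hsupp, Finset.card_erase_of_mem (Finset.mem_univ a), Finset.card_univ, h21] at h
    rw [hrep] at h
    simpa using h
  have hk : k = 0 := by
    by_contra hk
    have : 8 ∣ 20 := hsum ▸ (Dvd.dvd.mul_left (by
      have := pow_dvd_pow 2 (show 3 ≤ k + 2 by omega); simpa using this) _)
    omega
  subst hk
  have h5 : σ.cycleType.card = 5 := by simp at hsum; omega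
  rw [sign_of_cycleType, sum_cycleType, hsupp, Finset.card_erase_of_mem (Finset.mem_univ a),
    Finset.card_univ, h21, h5]
  decide

end perm

section simple

variable {G : Type*} [Group G] [Finite G]

omit [Finite G] in
theorem card_zpowers_five {x : G} (hx : orderOf x = 5) : Nat.card (Subgroup.zpowers x) = 5 := by
  rw [Nat.card_zpowers, hx]

theorem not_twentyone [IsSimpleGroup G] (hG : ¬ IsMulCommutative G)
    (h21 : Nat.card (Sylow 5 G) = 21) : False := by
  classical
  have : Fact (Nat.Prime 5) := ⟨by norm_num⟩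
  have : Fintype (Sylow 5 G) := Fintype.ofFinite _
  have hcardX : Fintype.card (Sylow 5 G) = 21 := by rw [← Nat.card_eq_fintype_card, h21]
  have hp : 5 ∣ Nat.card G := by
    by_contra h
    have hbot : ∀ R : Sylow 5 G, (R : Subgroup G) = ⊥ := fun R => by
      obtain ⟨n, hn⟩ := R.isPGroup'.exists_card_eq
      refine Subgroup.card_eq_one.1 ?_
      rcases n with _ | n
      · simpa using hn
      · exact absurd ((hn ▸ dvd_pow_self 5 n.succ_ne_zero).trans (R : Subgroup G).card_subgroup_dvd_card) h
    have : Subsingleton (Sylow 5 G) := ⟨fun A B => Sylow.ext ((hbot A).trans (hbot B).symm)⟩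
    have := Nat.card_of_subsingleton (Classical.arbitrary (Sylow 5 G))
    omega
  have hc5 : ∀ Q : Sylow 5 G, Nat.card (Q : Subgroup G) = 5 := fun Q =>
    Cfsg.Agent.Lib.Struct4.card_sylow_eq_prime_of_simple hG hp (by rw [h21]; norm_num) Q
  -- the permutation action
  let φ := toPermHom G (Sylow 5 G)
  have hφ : ∀ (g : G) (Q : Sylow 5 G), φ g Q = g • Q := fun _ _ => rfl
  have hφinj : Function.Injective φ := by
    rw [← MonoidHom.ker_eq_bot_iff]
    refine ((inferInstance : φ.ker.Normal).eq_bot_or_eq_top).resolve_right fun h => ?_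
    obtain ⟨A, B, hAB⟩ := Fintype.one_lt_card_iff.1 (show 1 < Fintype.card (Sylow 5 G) by omega)
    obtain ⟨g, hg⟩ := exists_smul_eq G A B
    refine hAB (hg ▸ ?_)
    have : φ g = 1 := (h ▸ Subgroup.mem_top g : g ∈ φ.ker)
    rw [← hφ, this]; rfl
  have hsign : ∀ g, sign (φ g) = 1 := fun g =>
    Equiv.Perm.mem_alternatingGroup.1
      (SmallSimple.mem_alternating_of_perfect (SmallSimple.commutator_eq_top hG) φ g)
  have hfaith : ∀ g : G, (∀ Q : Sylow 5 G, g • Q = Q) → g = 1 := fun g hg =>
    hφinj (by rw [map_one]; exact Equiv.ext hg)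
  obtain ⟨P⟩ : Nonempty (Sylow 5 G) := inferInstance
  obtain ⟨⟨x, hxP⟩, hx0⟩ : ∃ x : (P : Subgroup G), orderOf x = 5 :=
    exists_prime_orderOf_dvd_card' 5 (by rw [hc5])
  have hx5 : orderOf x = 5 := by rw [← hx0, Subgroup.orderOf_mk]
  have hPx : (P : Subgroup G) = Subgroup.zpowers x :=
    (Subgroup.eq_of_le_of_card_ge (by rwa [Subgroup.zpowers_le]) (by rw [hc5, card_zpowers_five hx5])).symm
  have hxpow : x ^ 5 = 1 := by rw [← hx5, pow_orderOf_eq_one]
  -- an element of order 5 fixes only its own Sylow subgroup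
  have hown : ∀ (y : G), orderOf y = 5 → ∀ Q : Sylow 5 G, y • Q = Q → (Q : Subgroup G) = Subgroup.zpowers y := by
    intro y hy Q hQ
    have hyQ : Subgroup.zpowers y ≤ (Q : Subgroup G) := by
      have h := IsPGroup.inf_normalizer_sylow (IsPGroup.of_card (n := 1) (G := Subgroup.zpowers y)
        (by rw [card_zpowers_five hy, pow_one])) Q
      have h2 : Subgroup.zpowers y ≤ Subgroup.normalizer (Q : Set G) := by
        rw [Subgroup.zpowers_le]; exact Sylow.smul_eq_iff_mem_normalizer.1 hQ
      rw [inf_eq_left.2 h2] at h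
      exact h ▸ inf_le_right
    exact (Subgroup.eq_of_le_of_card_ge hyQ (by rw [hc5, card_zpowers_five hy])).symm
  have hxfix : ∀ Q : Sylow 5 G, x • Q = Q → Q = P := fun Q hQ =>
    Sylow.ext ((hown x hx5 Q hQ).trans hPx.symm)
  have hxself : x • P = P := Sylow.smul_eq_iff_mem_normalizer.2 (Subgroup.le_normalizer hxP)
  have hxne : ∀ (Q : Sylow 5 G), Q ≠ P → ∀ a b : ℕ, x ^ a • Q = x ^ b • Q → a % 5 = b % 5 := by
    intro Q hQ a b hab
    by_contra hne
    have hc : ∀ c : ℕ, c < 5 → x ^ c • Q = Q → c = 0 := by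
      intro c hc5' hcQ
      by_contra hc0
      have hord : orderOf (x ^ c) = 5 := by
        rw [Nat.Coprime.orderOf_pow (by rw [hx5]; interval_cases c <;> first | omega | norm_num), hx5]
      have h := hown _ hord Q hcQ
      refine hQ (Sylow.ext ?_)
      rw [h, hPx]
      exact Subgroup.eq_of_le_of_card_ge (by rw [Subgroup.zpowers_le]; exact Subgroup.npow_mem_zpowers x c)
        (by rw [card_zpowers_five hord, card_zpowers_five hx5])
    have key : x ^ (a % 5) • Q = x ^ (b % 5) • Q := by
      rwa [pow_eq_pow_mod a hxpow, pow_eq_pow_mod b hxpow] at hab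
    rcases lt_or_gt_of_ne hne with h | h
    · have : x ^ (b % 5 - a % 5) • Q = Q := by
        refine MulAction.injective (x ^ (a % 5)) ?_
        change x ^ (a % 5) • x ^ (b % 5 - a % 5) • Q = x ^ (a % 5) • Q
        rw [smul_smul, ← pow_add, Nat.add_sub_cancel' h.le, key]
      have := hc _ (by omega) this
      omega
    · have : x ^ (a % 5 - b % 5) • Q = Q := by
        refine MulAction.injective (x ^ (b % 5)) ?_
        change x ^ (b % 5) • x ^ (a % 5 - b % 5) • Q = x ^ (b % 5) • Q
        rw [smul_smul, ← pow_add, Nat.add_sub_cancel' h.le, key]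
      have := hc _ (by omega) this
      omega
  have hxpow_eq : ∀ {a b : ℕ}, x ^ a = x ^ b ↔ a % 5 = b % 5 := fun {a b} => by
    rw [pow_eq_pow_iff_modEq, hx5, Nat.ModEq]
  have hexp : ∀ g : G, g • P = P → ∃ k, k < 5 ∧ g * x * g⁻¹ = x ^ k := by
    intro g hg
    have hmem : g * x * g⁻¹ ∈ Subgroup.zpowers x := by
      rw [← hPx]
      exact ((Subgroup.mem_normalizer_iff).1 (Sylow.smul_eq_iff_mem_normalizer.1 hg) x).1 hxP
    rw [mem_zpowers_iff_mem_range_orderOf, Finset.mem_image] at hmem
    obtain ⟨k, hk, hk'⟩ := hmem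
    exact ⟨k, hx5 ▸ Finset.mem_range.1 hk, hk'.symm⟩
  -- involutions
  let Fx : G → Finset (Sylow 5 G) := fun t => Finset.univ.filter fun Q => t • Q = Q
  have hFx : ∀ t Q, Q ∈ Fx t ↔ t • Q = Q := fun t Q => by simp [Fx]
  have hmod4 : ∀ t : G, orderOf t = 2 → (Fx t).card % 4 = 1 := by
    intro t ht
    have h := four_dvd_support (σ := φ t) (by rw [← map_pow, ← ht, pow_orderOf_eq_one, map_one]) (hsign t)
    have hs : (φ t).support = Finset.univ \ Fx t := by
      ext Q; simp [Fx, hφ]
    rw [hs, Finset.card_univ_sdiff, hcardX] at h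
    have := Finset.card_le_univ (Fx t)
    omega
  have hconjfix : ∀ g t : G, (Fx (g * t * g⁻¹)).card = (Fx t).card := by
    intro g t
    refine Finset.card_bij' (fun Q _ => g⁻¹ • Q) (fun Q _ => g • Q) ?_ ?_ ?_ ?_
    · intro Q hQ
      rw [hFx] at hQ ⊢
      conv_rhs => rw [← hQ]
      rw [smul_smul, smul_smul]; congr 1; group
    · intro Q hQ
      rw [hFx] at hQ ⊢
      rw [smul_smul, show g * t * g⁻¹ * g = g * t by group, mul_smul, hQ]
    · intro Q _; exact smul_inv_smul g Q
    · intro Q _; exact inv_smul_smul g Q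
  have hinvcase : ∀ t : G, orderOf t = 2 → t • P = P → Commute t x ∨ t * x = x ^ 4 * t := by
    intro t ht htP
    obtain ⟨k, hk5, hk⟩ := hexp t htP
    have h2 : x ^ (k * k) = x := by
      rw [pow_mul, ← hk, conj_pow, ← hk]
      have := Involution.mul_self ht
      rw [Involution.inv_self ht]
      simp only [mul_assoc, this, mul_one]
      rw [← mul_assoc, this, one_mul]
    have h3 : (k * k) % 5 = 1 := by
      have h := hxpow_eq.1 (h2.trans (pow_one x).symm)
      simpa using h
    have h4 : k = 1 ∨ k = 4 := by interval_cases k <;> omega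
    rcases h4 with rfl | rfl
    · exact Or.inl (show t * x = x * t by rw [pow_one] at hk; exact mul_inv_eq_iff_eq_mul.1 hk)
    · exact Or.inr (mul_inv_eq_iff_eq_mul.1 hk)
  -- centralising involutions fix one point
  have hne1 : ∀ t : G, orderOf t = 2 → (Fx t).card ≠ 21 := by
    intro t ht h
    refine Involution.ne_one ht (hfaith t fun Q => (hFx t Q).1 ?_)
    rw [Finset.eq_univ_of_card _ (h.trans hcardX.symm)]; exact Finset.mem_univ Q
  have hcent : ∀ t : G, orderOf t = 2 → t • P = P → Commute t x → (Fx t).card = 1 := by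
    intro t ht htP htx
    let F := {Q : Sylow 5 G // t • Q = Q ∧ Q ≠ P}
    have hinv : ∀ Q : Sylow 5 G, (φ x Q ∈ ({R | t • R = R ∧ R ≠ P} : Set _)) ↔
        Q ∈ ({R | t • R = R ∧ R ≠ P} : Set _) := by
      intro Q
      simp only [Set.mem_ofPred_eq, hφ]
      rw [smul_smul, htx.eq, mul_smul, smul_left_cancel_iff]
      exact and_congr_right fun _ => not_congr
        ⟨fun h => smul_left_cancel x (h.trans hxself.symm), fun h => by rw [h, hxself]⟩
    let σ : Perm F := (φ x).subtypePerm hinv
    have hdvd : 5 ∣ Fintype.card F := by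
      by_contra h
      obtain ⟨⟨Q, hQ⟩, hQx⟩ := exists_fixed_point_of_prime (n := 1) h (σ := σ) (by
        have hn : ∀ (n : ℕ) (u : F), ((σ ^ n) u : Sylow 5 G) = x ^ n • (u : Sylow 5 G) := fun n u => by
          induction n with
          | zero => rw [pow_zero, pow_zero, one_smul]; rfl
          | succ n ih => rw [pow_succ', pow_succ', mul_smul, ← ih]; rfl
        refine Equiv.ext fun u => Subtype.ext ?_
        rw [hn, pow_one, hxpow, one_smul]; rfl)
      exact hQ.2 (hxfix Q (congrArg Subtype.val hQx))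
    have hF : Fintype.card F = (Fx t).card - 1 := by
      rw [← Finset.card_erase_of_mem ((hFx t P).2 htP), Fintype.card_subtype]
      congr 1; ext Q; simp [Fx, and_comm]
    have := hmod4 t ht
    have := Finset.card_le_univ (Fx t)
    have := hne1 t ht
    omega
  -- inverting involutions
  have hsemi : ∀ t : G, t * x = x ^ 4 * t → ∀ i : ℕ, t * x ^ i = x ^ (4 * i) * t := by
    intro t h i
    rw [pow_mul]
    exact (SemiconjBy.pow_right (h : SemiconjBy t x (x ^ 4)) i).eq
  have hinvert : ∀ t : G, orderOf t = 2 → t • P = P → t * x = x ^ 4 * t →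
      ((Fx t).card = 1 ∨ (Fx t).card = 5) ∧
      ((Fx t).card = 5 → ∀ R : Sylow 5 G, R ≠ P → ∃ Q, ∃ i : ℕ, t • Q = Q ∧ Q ≠ P ∧ x ^ i • Q = R) := by
    intro t ht htP htx
    let S := ((Fx t).erase P) ×ˢ Finset.range 5
    let f : Sylow 5 G × ℕ → Sylow 5 G := fun u => x ^ u.2 • u.1
    have hS : ∀ u ∈ S, t • u.1 = u.1 ∧ u.1 ≠ P ∧ u.2 < 5 := by
      intro u hu
      simp only [S, Finset.mem_product, Finset.mem_erase, Finset.mem_range, hFx] at hu
      exact ⟨hu.1.2, hu.1.1, hu.2⟩
    have hmaps : S.image f ⊆ Finset.univ.erase P := by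
      intro R hR
      obtain ⟨u, hu, rfl⟩ := Finset.mem_image.1 hR
      refine Finset.mem_erase.2 ⟨fun h => (hS u hu).2.1 ?_, Finset.mem_univ _⟩
      refine MulAction.injective (x ^ u.2) (h.trans ?_)
      exact (Sylow.smul_eq_iff_mem_normalizer.2 (Subgroup.le_normalizer (Subgroup.pow_mem _ hxP _))).symm
    have hinj : (S : Set _).InjOn f := by
      rintro ⟨q, i⟩ hu ⟨q', j⟩ hv h
      obtain ⟨h1, h2, h3⟩ := hS _ hu
      obtain ⟨h1', h2', h3'⟩ := hS _ hv
      simp only [f] at h h1 h2 h3 h1' h2' h3'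
      have h' : x ^ (4 * i) • q = x ^ (4 * j) • q' := by
        have := congrArg (fun R => t • R) h
        simp only [smul_smul, hsemi t htx] at this
        rw [mul_smul, h1, mul_smul, h1'] at this
        exact this
      have e1 : x ^ (i + 4 * j) • q = q' := by
        rw [add_comm, pow_add, mul_smul, h, smul_smul, ← pow_add, show 4 * j + j = 5 * j by ring, pow_mul,
          hxpow, one_pow, one_smul]
      have e2 : x ^ (4 * i + j) • q = q' := by
        rw [add_comm, pow_add, mul_smul, h', smul_smul, ← pow_add, show j + 4 * j = 5 * j by ring, pow_mul,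
          hxpow, one_pow, one_smul]
      have := hxne q h2 _ _ (e1.trans e2.symm)
      obtain rfl : i = j := by omega
      rw [smul_left_cancel_iff] at h
      rw [h]
    have hcard : S.card ≤ 20 := by
      rw [← Finset.card_image_of_injOn hinj]
      refine (Finset.card_le_card hmaps).trans ?_
      rw [Finset.card_erase_of_mem (Finset.mem_univ P), Finset.card_univ, hcardX]
    have hSc : S.card = ((Fx t).card - 1) * 5 := by
      simp only [S, Finset.card_product, Finset.card_range, Finset.card_erase_of_mem ((hFx t P).2 htP)]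
    refine ⟨by have := hmod4 t ht; omega, fun h5 R hR => ?_⟩
    have heq : S.image f = Finset.univ.erase P := by
      refine Finset.eq_of_subset_of_card_le hmaps ?_
      rw [Finset.card_image_of_injOn hinj, hSc, h5, Finset.card_erase_of_mem (Finset.mem_univ P),
        Finset.card_univ, hcardX]
    have : R ∈ S.image f := heq ▸ Finset.mem_erase.2 ⟨hR, Finset.mem_univ R⟩
    obtain ⟨⟨q, i⟩, hu, huR⟩ := Finset.mem_image.1 this
    obtain ⟨a, b, c⟩ := hS _ hu
    exact ⟨q, i, a, b, huR⟩
  have hno5 : ∀ r : G, orderOf r = 2 → r • P = P → (Fx r).card ≠ 5 := by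
    intro r hr hrP hr5
    have hnc : ∀ t : G, orderOf t = 2 → t • P = P → (Fx t).card = 5 → t * x = x ^ 4 * t := fun t ht htP h5 =>
      (hinvcase t ht htP).resolve_left fun hc => by rw [hcent t ht htP hc] at h5; omega
    have hrx := hnc r hr hrP hr5
    -- the centraliser is transitive on the fixed points
    have htrans : ∀ Q : Sylow 5 G, r • Q = Q → ∃ g : G, Commute g r ∧ g • P = Q := by
      intro Q hQ
      obtain ⟨g, rfl⟩ := exists_smul_eq G P Q
      let r' := g⁻¹ * r * g⁻¹⁻¹
      have hr' : orderOf r' = 2 := (Involution.orderOf_conj _ _).trans hr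
      have hr'P : r' • P = P := by
        rw [mul_smul, mul_smul, inv_inv, hQ, inv_smul_smul]
      have hr'5 : (Fx r').card = 5 := (hconjfix _ _).trans hr5
      have hr'x := hnc r' hr' hr'P hr'5
      let u := r * r'
      have hu5 : u ^ 5 = 1 := by
        refine hfaith _ fun R => ?_
        have hux : Commute u x := by
          change r * r' * x = x * (r * r')
          rw [mul_assoc, hr'x, ← mul_assoc, hsemi r hrx 4, mul_assoc, pow_eq_pow_mod _ hxpow, pow_one]
        have huP : u • P = P := by rw [mul_smul, hr'P, hrP]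
        have hupow : ∀ n : ℕ, u ^ n • P = P := fun n => by
          induction n with
          | zero => rw [pow_zero, one_smul]
          | succ n ih => rw [pow_succ, mul_smul, huP, ih]
        rcases eq_or_ne R P with rfl | hR
        · exact hupow 5
        obtain ⟨q, i, hq, hqP, rfl⟩ := (hinvert r hr hrP hrx).2 hr5 R hR
        obtain ⟨q', a, hq', -, hq'q⟩ := (hinvert r' hr' hr'P hr'x).2 hr'5 q hqP
        obtain ⟨b, hb⟩ : ∃ b : ℕ, u • q = x ^ b • q := by
          refine ⟨4 * (4 * a + 4 * a), ?_⟩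
          have e : r' • q = x ^ (4 * a + 4 * a) • q := by
            rw [← hq'q, smul_smul, hsemi r' hr'x, mul_smul, hq', smul_smul, ← pow_add]
            congr 1
            rw [pow_eq_pow_mod (4 * a) hxpow, pow_eq_pow_mod (4 * a + 4 * a + a) hxpow]
            congr 1; omega
          rw [mul_smul, e, smul_smul, hsemi r hrx, mul_smul, hq]
        have hn : ∀ n : ℕ, u ^ n • q = x ^ (b * n) • q := fun n => by
          induction n with
          | zero => simp
          | succ n ih =>
            rw [pow_succ, mul_smul, hb, smul_smul, ((hux.pow_pow n b).eq), mul_smul, ih, smul_smul, ← pow_add]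
            congr 2; ring
        rw [smul_smul, (hux.pow_pow 5 i).eq, mul_smul, hn, show b * 5 = 5 * b by ring, pow_mul, hxpow, one_pow,
          one_smul]
      obtain ⟨j, hj⟩ : ∃ j : ℕ, u = x ^ j := by
        rcases (Nat.dvd_prime (by norm_num : Nat.Prime 5)).1 (orderOf_dvd_of_pow_eq_one hu5) with h | h
        · exact ⟨0, by rw [pow_zero]; exact orderOf_eq_one_iff.1 h⟩
        · have h' := hown u h P (by rw [mul_smul, hr'P, hrP])
          have : u ∈ Subgroup.zpowers x := by rw [← hPx, h']; exact Subgroup.mem_zpowers u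
          obtain ⟨n, hn⟩ := (mem_zpowers_iff_mem_range_orderOf.1 this : _) |> Finset.mem_image.1
          exact ⟨n, hn.2.symm⟩
      have hr'eq : r' = r * x ^ j := by
        rw [← hj]; change r' = r * (r * r'); rw [← mul_assoc, Involution.mul_self hr, one_mul]
      refine ⟨g * x ^ (2 * j), ?_, ?_⟩
      · have hval : g⁻¹ * r * g = r * x ^ j := by simpa [r'] using hr'eq
        change g * x ^ (2 * j) * r = r * (g * x ^ (2 * j))
        calc g * x ^ (2 * j) * r = g * (x ^ (2 * j) * r) := mul_assoc _ _ _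
          _ = g * (r * x ^ j * x ^ (2 * j)) := by
            rw [mul_assoc r, ← pow_add, hsemi r hrx, pow_eq_pow_mod (2 * j) hxpow,
              pow_eq_pow_mod (4 * (j + 2 * j)) hxpow]
            congr 3; omega
          _ = r * (g * x ^ (2 * j)) := by rw [← hval]; group
      · rw [mul_smul, Sylow.smul_eq_iff_mem_normalizer.2 (Subgroup.le_normalizer (Subgroup.pow_mem _ hxP _))]
    -- hence an element of order 5 commutes with r
    let C : Subgroup G := Subgroup.centralizer {r}
    have horb : (MulAction.orbit C P) = {Q | r • Q = Q} := by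
      ext Q
      constructor
      · rintro ⟨⟨g, hg⟩, rfl⟩
        change r • g • P = g • P
        rw [smul_smul, (Subgroup.mem_centralizer_singleton_iff.1 hg).symm, mul_smul, hrP]
      · intro hQ
        obtain ⟨g, hg, rfl⟩ := htrans Q hQ
        exact ⟨⟨g, Subgroup.mem_centralizer_singleton_iff.2 hg⟩, rfl⟩
    have hdvd : 5 ∣ Nat.card C := by
      have h := Nat.card_congr (MulAction.orbitProdStabilizerEquivGroup C P)
      have hset : ({Q : Sylow 5 G | r • Q = Q} : Set (Sylow 5 G)) = (Fx r : Set (Sylow 5 G)) :=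
        Set.ext fun Q => (hFx r Q).symm
      rw [Nat.card_prod, horb, hset, Nat.card_coe_set_eq, Set.ncard_coe_finset, hr5] at h
      exact ⟨_, h.symm⟩
    obtain ⟨⟨y, hyC⟩, hy⟩ := exists_prime_orderOf_dvd_card' 5 hdvd
    rw [Subgroup.orderOf_mk] at hy
    have hyr : Commute y r := Subgroup.mem_centralizer_singleton_iff.1 hyC
    obtain ⟨Q, hQ⟩ := (IsPGroup.of_card (n := 1) (G := Subgroup.zpowers y)
      (by rw [card_zpowers_five hy, pow_one])).exists_le_sylow
    have hyQ : y • Q = Q := Sylow.smul_eq_iff_mem_normalizer.2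
      (Subgroup.le_normalizer (hQ (Subgroup.mem_zpowers y)))
    have hrQ : r • Q = Q := by
      have : y • (r • Q) = r • Q := by rw [smul_smul, hyr.eq, mul_smul, hyQ]
      exact Sylow.ext ((hown y hy _ this).trans (hown y hy _ hyQ).symm)
    obtain ⟨g, rfl⟩ := exists_smul_eq G P Q
    let r₁ := g⁻¹ * r * g⁻¹⁻¹
    let y₁ := g⁻¹ * y * g⁻¹⁻¹
    have hy₁P : y₁ • P = P := by rw [mul_smul, mul_smul, inv_inv, hyQ, inv_smul_smul]
    have hr₁P : r₁ • P = P := by rw [mul_smul, mul_smul, inv_inv, hrQ, inv_smul_smul]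
    have hy₁ : orderOf y₁ = 5 := (Involution.orderOf_conj _ _).trans hy
    have hc : Commute r₁ x := by
      have hc' : Commute r₁ y₁ := (hyr.symm.conj g⁻¹)
      have hxy : x ∈ Subgroup.zpowers y₁ := (hown y₁ hy₁ P hy₁P) ▸ hxP
      obtain ⟨n, rfl⟩ := Subgroup.mem_zpowers_iff.1 hxy
      exact hc'.zpow_right n
    have := hcent r₁ ((Involution.orderOf_conj _ _).trans hr) hr₁P hc
    rw [hconjfix] at this
    omega
  have hone : ∀ t : G, orderOf t = 2 → (Fx t).card = 1 := by
    intro t ht
    obtain ⟨Q, hQ⟩ := Finset.card_pos.1 (show 0 < (Fx t).card by have := hmod4 t ht; omega)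
    rw [hFx] at hQ
    obtain ⟨g, rfl⟩ := exists_smul_eq G P Q
    rw [← hconjfix g⁻¹ t]
    have hP : (g⁻¹ * t * g⁻¹⁻¹) • P = P := by rw [mul_smul, mul_smul, inv_inv, hQ, inv_smul_smul]
    have ht' : orderOf (g⁻¹ * t * g⁻¹⁻¹) = 2 := (Involution.orderOf_conj _ _).trans ht
    rcases hinvcase _ ht' hP with h | h
    · exact hcent _ ht' hP h
    · exact (hinvert _ ht' hP h).1.resolve_right (hno5 _ ht' hP)
  have huniq : ∀ t : G, orderOf t = 2 → ∀ A B : Sylow 5 G, t • A = A → t • B = B → A = B :=
    fun t ht A B hA hB => Finset.card_le_one.1 (hone t ht).le A ((hFx t A).2 hA) B ((hFx t B).2 hB)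
  have hallconj : ∀ s t : G, orderOf s = 2 → orderOf t = 2 → IsConj s t := by
    intro s t hs ht
    by_contra hst
    obtain ⟨A, hA⟩ := Finset.card_pos.1 (show 0 < (Fx t).card by rw [hone t ht]; omega)
    obtain ⟨B, hB⟩ := Finset.card_pos.1 (show 0 < (Fx s).card by rw [hone s hs]; omega)
    rw [hFx] at hA hB
    have hall : ∀ g : G, g • B = A := by
      intro g
      have hs' : orderOf (g * s * g⁻¹) = 2 := (Involution.orderOf_conj _ _).trans hs
      have hnodd : ¬ Odd (orderOf (t * (g * s * g⁻¹))) := fun h => hst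
        ((isConj_iff.2 ⟨g, rfl⟩ : IsConj s (g * s * g⁻¹)).trans (Involution.isConj_of_odd ht hs' h).symm)
      obtain ⟨w, hw, -, hwt, hws⟩ := Involution.exists_involution_commute ht hs' hnodd
      have hsB : (g * s * g⁻¹) • (g • B) = g • B := by
        rw [smul_smul, inv_mul_cancel_right, mul_smul, hB]
      have h1 : w • A = A := huniq t ht _ _ (by rw [smul_smul, ← hwt.eq, mul_smul, hA]) hA
      have h2 : w • (g • B) = g • B :=
        huniq _ hs' _ _ (by rw [smul_smul, ← hws.eq, mul_smul, hsB]) hsB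
      exact huniq w hw _ _ h2 h1
    obtain ⟨C₁, C₂, hC⟩ := Fintype.one_lt_card_iff.1 (show 1 < Fintype.card (Sylow 5 G) by omega)
    obtain ⟨g₁, h₁⟩ := exists_smul_eq G B C₁
    obtain ⟨g₂, h₂⟩ := exists_smul_eq G B C₂
    exact hC (by rw [← h₁, ← h₂, hall, hall])
  -- an inverting involution
  obtain ⟨s, hs, hsP, hsx⟩ : ∃ s : G, orderOf s = 2 ∧ s • P = P ∧ s * x = x ^ 4 * s := by
    obtain ⟨h, hh, hhc⟩ := SetLike.not_le_iff_exists.1 (SmallSimple.not_normalizer_le_centralizer hG P hp)
    have hhP : h • P = P := Sylow.smul_eq_iff_mem_normalizer.2 hh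
    obtain ⟨k, hk5, hk⟩ := hexp h hhP
    have hk' : k = 2 ∨ k = 3 ∨ k = 4 := by
      have h1 : k ≠ 1 := by
        rintro rfl
        refine hhc (Subgroup.mem_centralizer_iff.2 fun z hz => ?_)
        rw [SetLike.mem_coe, hPx] at hz
        obtain ⟨n, rfl⟩ := Subgroup.mem_zpowers_iff.1 hz
        rw [pow_one] at hk
        exact ((show Commute h x from mul_inv_eq_iff_eq_mul.1 hk).zpow_right n).eq.symm
      have h0 : k ≠ 0 := by
        rintro rfl
        rw [pow_zero, conj_eq_one_iff] at hk
        rw [hk] at hx5; simp at hx5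
      omega
    obtain ⟨h₀, h₀P, h₀x⟩ : ∃ h₀ : G, h₀ • P = P ∧ h₀ * x = x ^ 4 * h₀ := by
      by_cases h4 : k = 4
      · exact ⟨h, hhP, mul_inv_eq_iff_eq_mul.1 (h4 ▸ hk)⟩
      · refine ⟨h * h, by rw [mul_smul, hhP, hhP], mul_inv_eq_iff_eq_mul.1 ?_⟩
        rw [show h * h * x * (h * h)⁻¹ = h * (h * x * h⁻¹) * h⁻¹ by group, hk, ← conj_pow, hk, ← pow_mul,
          pow_eq_pow_mod _ hxpow]
        rcases hk' with rfl | rfl | rfl <;> first | omega | norm_num
    obtain ⟨e, m, hm, hem⟩ := Nat.exists_eq_two_pow_mul_odd (orderOf_pos h₀).ne'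
    have hf : ∀ n : ℕ, h₀ ^ (2 * n + 1) * x = x ^ 4 * h₀ ^ (2 * n + 1) := by
      intro n
      induction n with
      | zero => simpa using h₀x
      | succ n ih =>
        rw [show 2 * (n + 1) + 1 = 2 * n + 1 + 1 + 1 by ring, pow_succ, mul_assoc, h₀x, ← mul_assoc,
          pow_succ, mul_assoc (h₀ ^ (2 * n + 1)) h₀ (x ^ 4), hsemi h₀ h₀x 4, pow_eq_pow_mod (4 * 4) hxpow,
          pow_one, ← mul_assoc, ih]
        simp only [mul_assoc]
    obtain ⟨n, rfl⟩ := hm
    have hfP : ∀ i : ℕ, h₀ ^ i • P = P := fun i => by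
      induction i with
      | zero => rw [pow_zero, one_smul]
      | succ i ih => rw [pow_succ, mul_smul, h₀P, ih]
    have hfo : orderOf (h₀ ^ (2 * n + 1)) = 2 ^ e := by
      rw [orderOf_pow_of_dvd (by omega) (hem ▸ dvd_mul_left _ _), hem, Nat.mul_div_cancel _ (by omega)]
    set f := h₀ ^ (2 * n + 1) with hfdef
    match e, hfo with
    | 0, hfo =>
      have h1 : f = 1 := orderOf_eq_one_iff.1 (by simpa using hfo)
      have h14 := hf n
      rw [← hfdef, h1, one_mul, mul_one] at h14
      exact absurd (hxpow_eq.1 ((pow_one x).trans h14)) (by decide)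
    | 1, hfo => exact ⟨f, by simpa using hfo, hfdef ▸ hfP _, hf n⟩
    | e + 2, hfo =>
      exfalso
      have ht : orderOf (f ^ 2 ^ (e + 1)) = 2 := by
        rw [orderOf_pow_of_dvd (by positivity) (hfo ▸ pow_dvd_pow 2 (by omega)), hfo,
          pow_succ 2 (e + 1), Nat.mul_div_cancel_left _ (by positivity)]
      have hfo' : orderOf (φ f) = 2 ^ (e + 2) := by rw [orderOf_injective φ hφinj, hfo]
      refine sign_ne_one hcardX hfo' P (hfdef ▸ hfP _) (fun Q hQ => ?_) (hsign f)
      rw [← map_pow, hφ] at hQ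
      refine huniq _ ht Q P hQ ?_
      rw [hfdef, ← pow_mul]; exact hfP _
  -- no involution centralises x
  have hnocent : ∀ c : G, orderOf c = 2 → c • P = P → ¬ Commute c x := by
    intro c hc hcP hcx
    obtain ⟨g, hg⟩ := isConj_iff.1 (hallconj c s hc hs)
    have hgP : g • P = P := huniq s hs _ _ (by rw [← hg, smul_smul, inv_mul_cancel_right, mul_smul, hcP]) hsP
    obtain ⟨l, hl5, hl⟩ := hexp g⁻¹ (by rw [inv_smul_eq_iff, hgP])
    have hsc : Commute s x := by
      have h1 : Commute c (g⁻¹ * x * g⁻¹⁻¹) := hl ▸ hcx.pow_right l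
      have h2 := h1.conj g
      rwa [hg, show g * (g⁻¹ * x * g⁻¹⁻¹) * g⁻¹ = x by group] at h2
    rw [hsc.eq] at hsx
    exact absurd (hxpow_eq.1 ((pow_one x).trans (mul_right_cancel hsx))) (by decide)
  -- hence a Sylow 2-subgroup is cyclic
  have : Fact (Nat.Prime 2) := ⟨Nat.prime_two⟩
  obtain ⟨T, hsT⟩ := (IsPGroup.of_card (n := 1) (G := Subgroup.zpowers s)
    (by rw [Nat.card_zpowers, hs, pow_one])).exists_le_sylow
  have hsT' : s ∈ (T : Subgroup G) := hsT (Subgroup.mem_zpowers s)
  have hTP : ∀ t ∈ (T : Subgroup G), t • P = P := by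
    obtain ⟨A, hA⟩ := T.isPGroup'.nonempty_fixed_point_of_prime_not_dvd_card (Sylow 5 G)
      (by rw [h21]; decide)
    have hAP : A = P := huniq s hs A P (hA ⟨s, hsT'⟩) hsP
    subst hAP
    exact fun t ht => hA ⟨t, ht⟩
  have hTcent : ∀ t ∈ (T : Subgroup G), Commute t x → t = 1 := by
    intro t ht htx
    by_contra h1
    obtain ⟨k, hk⟩ := IsPGroup.iff_orderOf.1 T.isPGroup' ⟨t, ht⟩
    rw [Subgroup.orderOf_mk] at hk
    obtain _ | k := k
    · exact h1 (orderOf_eq_one_iff.1 (by simpa using hk))
    refine hnocent (t ^ 2 ^ k) ?_ (hTP _ (Subgroup.pow_mem _ ht _)) (htx.pow_left _)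
    rw [orderOf_pow_of_dvd (by positivity) (hk ▸ pow_dvd_pow 2 (by omega)), hk, pow_succ,
      Nat.mul_div_cancel_left _ (by positivity)]
  have hT : IsCyclic (T : Subgroup G) := by
    have hk : ∀ t : (T : Subgroup G), ∃ k, k < 5 ∧ (t : G) * x * (t : G)⁻¹ = x ^ k := fun t => hexp _ (hTP _ t.2)
    choose κ hκ5 hκ using hk
    have hκinj : Function.Injective κ := by
      intro a b hab
      have h : Commute ((b : G)⁻¹ * a) x := by
        have h' : (a : G) * x * (a : G)⁻¹ = (b : G) * x * (b : G)⁻¹ := by rw [hκ, hκ, hab]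
        change (b : G)⁻¹ * a * x = x * ((b : G)⁻¹ * a)
        calc (b : G)⁻¹ * a * x = (b : G)⁻¹ * ((a : G) * x * (a : G)⁻¹) * a := by group
          _ = x * ((b : G)⁻¹ * a) := by rw [h']; group
      have := hTcent _ ((T : Subgroup G).mul_mem ((T : Subgroup G).inv_mem b.2) a.2) h
      exact Subtype.ext (inv_mul_eq_one.1 this).symm
    have hκ0 : ∀ t, κ t ≠ 0 := fun t h => by
      have := hκ t
      rw [h, pow_zero, conj_eq_one_iff] at this
      rw [this] at hx5; simp at hx5
    have hle : Nat.card (T : Subgroup G) ≤ 4 := by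
      refine (Nat.card_le_card_of_injective (fun t => (⟨κ t - 1, by have := hκ5 t; omega⟩ : Fin 4)) ?_).trans
        (Nat.card_fin 4).le
      intro a b hab
      simp only [Fin.mk.injEq] at hab
      have := hκ0 a; have := hκ0 b
      exact hκinj (by omega)
    obtain ⟨n, hn⟩ := T.isPGroup'.exists_card_eq
    match n, hn with
    | 0, hn => exact @isCyclic_of_subsingleton _ _ (Nat.card_eq_one_iff_unique.1 (by simpa using hn)).1
    | 1, hn => exact isCyclic_of_prime_card (by simpa using hn)
    | 2, hn =>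
      by_contra hcyc
      have hinvol : ∀ t : (T : Subgroup G), t ≠ 1 → κ t = 4 := by
        intro t ht
        have ht2 : orderOf (t : G) = 2 := by
          obtain ⟨k, hk⟩ := IsPGroup.iff_orderOf.1 T.isPGroup' t
          rw [Subgroup.orderOf_coe]
          obtain _ | _ | k := k
          · exact absurd (orderOf_eq_one_iff.1 (by simpa using hk)) ht
          · simpa using hk
          · refine absurd (isCyclic_of_orderOf_eq_card t ?_) hcyc
            refine Nat.le_antisymm (Nat.le_of_dvd Nat.card_pos (orderOf_dvd_natCard t)) ?_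
            rw [hn, hk]; exact Nat.pow_le_pow_right two_pos (by omega)
        rcases hinvcase _ ht2 (hTP _ t.2) with h | h
        · exact absurd (Subtype.ext (hTcent _ t.2 h)) ht
        · exact (hxpow_eq.1 ((hκ t).symm.trans (mul_inv_eq_iff_eq_mul.2 h))) |> fun e => by
            have := hκ5 t; simpa [Nat.mod_eq_of_lt this] using e
      have : Fintype (T : Subgroup G) := Fintype.ofFinite _
      have h4 : Fintype.card (T : Subgroup G) = 4 := by rw [← Nat.card_eq_fintype_card, hn]; rfl
      obtain ⟨a, ha⟩ := (Finset.univ.erase (1 : (T : Subgroup G))).eq_empty_or_nonempty.resolve_left (by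
        intro h
        have := congrArg Finset.card h
        simp [h4] at this)
      obtain ⟨b, hb⟩ := ((Finset.univ.erase (1 : (T : Subgroup G))).erase a).eq_empty_or_nonempty.resolve_left (by
        intro h
        have := congrArg Finset.card h
        rw [Finset.card_erase_of_mem ha, Finset.card_erase_of_mem (Finset.mem_univ _), Finset.card_univ, h4] at this
        simp at this)
      simp only [Finset.mem_erase, Finset.mem_univ, and_true] at ha hb
      exact hb.1 (hκinj ((hinvol b hb.2).trans (hinvol a ha).symm))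
    | m + 3, hn =>
      exfalso
      rw [hn] at hle
      have : 2 ^ 3 ≤ 2 ^ (m + 3) := Nat.pow_le_pow_right two_pos (by omega)
      omega
  obtain ⟨H, hH⟩ := Involution.exists_index_two_of_cyclic_sylow
    (even_iff_two_dvd.2 (hs ▸ orderOf_dvd_natCard s)) T hT
  have := Subgroup.normal_of_index_eq_two hH
  rcases this.eq_bot_or_eq_top with h | h
  · rw [h, Subgroup.index_bot] at hH
    exact hG ((isCyclic_of_prime_card hH).isMulCommutative)
  · rw [h, Subgroup.index_top] at hH; omega

end simple

/-- No finite group has exactly 21 Sylow 5-subgroups. -/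
theorem card_sylow_five_ne {H : Type*} [Group H] [Finite H] : Nat.card (Sylow 5 H) ≠ 21 := by
  have : Fact (Nat.Prime 5) := ⟨by norm_num⟩
  suffices Nat.card (Sylow 5 H) % 5 = 1 ∧ Nat.card (Sylow 5 H) ≠ 21 from this.2
  refine Cfsg.Agent.Lib.Struct4.card_sylow_induction 5 (fun _ _ _ => True) (fun _ _ _ _ _ => trivial)
    (fun _ _ _ _ _ _ => trivial) (fun n => n % 5 = 1 ∧ n ≠ 21) ?_ ?_ ?_ H trivial
  · rintro a b ⟨ha, ha'⟩ ⟨hb, hb'⟩
    refine ⟨by rw [Nat.mul_mod, ha, hb], fun h => ?_⟩
    have : a ∣ 21 := ⟨b, h.symm⟩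
    have := Nat.le_of_dvd (by norm_num) this
    interval_cases a <;> omega
  · intro n hn h
    constructor
    · conv_lhs => rw [← Nat.prod_factorization_pow_eq_self hn]
      rw [Finsupp.prod, Finset.prod_nat_mod]
      rw [Finset.prod_congr rfl fun q hq => show q ^ n.factorization q % 5 = 1 from
        h q (Nat.prime_of_mem_primeFactors (by simpa using hq)), Finset.prod_const_one]
      rfl
    · rintro rfl
      have := h 3 Nat.prime_three
      rw [show (21 : ℕ) = 3 * 7 from rfl, Nat.factorization_mul_apply_of_coprime (by norm_num),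
        Nat.Prime.factorization_self Nat.prime_three,
        Nat.factorization_eq_zero_of_not_dvd (by norm_num : ¬ 3 ∣ 7)] at this
      exact absurd this (by decide)
  · intro K _ _ _ hK
    refine ⟨card_sylow_modEq_one 5 K, fun h => ?_⟩
    refine not_twentyone (fun hc => ?_) h
    have : Subsingleton (Sylow 5 K) := ⟨fun A B => by
      obtain ⟨g, rfl⟩ := exists_smul_eq K A B
      have : ((A : Subgroup K)).Normal := ⟨fun n hn g => by
        rw [hc.is_comm.comm g n, mul_inv_cancel_right]; exact hn⟩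
      exact (Sylow.smul_eq_iff_mem_normalizer.2 (((Subgroup.normalizer_eq_top (H := (A : Subgroup K))).symm ▸ Subgroup.mem_top g :))).symm⟩
    rw [Nat.card_of_subsingleton (Classical.arbitrary (Sylow 5 K))] at h
    omega

end Cfsg.Agent.Lib.SylowTwentyOne
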