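import Mathlib

/-!
Transitive extensions and the nine-point group at the bottom of the Mathieu groups of degree twelve.
-/

set_option autoImplicit false

namespace Cfsg.Agent.Lib.WittTwelve

open Subgroup

/-- The double coset extension of `H` by `x`. -/
def ext {G : Type*} [Group G] (H : Subgroup G) (x : G) : Subgroup G := closure ((H : Set G) ∪ {x})

/-- The elements of a double coset extension. -/
def InExt {G : Type*} [Group G] (H : Subgroup G) (x g : G) : Prop :=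
  g ∈ H ∨ ∃ a ∈ H, ∃ b ∈ H, g = a * x * b

theorem mem_ext_iff {G : Type*} [Group G] [Finite G] {H : Subgroup G} {x : G} (hx : x * x = 1)
    (hclosed : ∀ h ∈ H, InExt H x (x * h * x)) (g : G) : g ∈ ext H x ↔ InExt H x g := by
  refine ⟨fun hg => ?_, ?_⟩
  · have h1 : ∀ h ∈ H, ∀ g, InExt H x g → InExt H x (h * g) := fun h hh g hg => by
      rcases hg with hg | ⟨a, ha, b, hb, rfl⟩
      · exact Or.inl (mul_mem hh hg)
      · exact Or.inr ⟨h * a, mul_mem hh ha, b, hb, by group⟩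
    have h2 : ∀ g, InExt H x g → InExt H x (x * g) := fun g hg => by
      rcases hg with hg | ⟨a, ha, b, hb, rfl⟩
      · exact Or.inr ⟨1, one_mem H, g, hg, by rw [one_mul]⟩
      · rw [show x * (a * x * b) = x * a * x * b by group]
        rcases hclosed a ha with h | ⟨c, hc, d, hd, e⟩
        · exact Or.inl (mul_mem h hb)
        · exact Or.inr ⟨c, hc, d * b, mul_mem hd hb, by rw [e]; group⟩
    have hinv : x⁻¹ = x := inv_eq_of_mul_eq_one_right hx
    refine closure_induction_left (p := fun g _ => InExt H x g) (Or.inl (one_mem H)) ?_ ?_ hg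
    · rintro a (ha | rfl) y - hy
      · exact h1 a ha y hy
      · exact h2 y hy
    · rintro a (ha | rfl) y - hy
      · exact h1 _ (inv_mem ha) y hy
      · rw [hinv]; exact h2 y hy
  · rintro (hg | ⟨a, ha, b, hb, rfl⟩)
    · exact subset_closure (Or.inl hg)
    · exact mul_mem (mul_mem (subset_closure (Or.inl ha)) (subset_closure (Or.inr rfl))) (subset_closure (Or.inl hb))

/-- The elements of the extension fixing the new point. -/
theorem fix_iff {Ω : Type*} [Finite Ω] {H : Subgroup (Equiv.Perm Ω)} {x : Equiv.Perm Ω} (hx : x * x = 1)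
    (hclosed : ∀ h ∈ H, InExt H x (x * h * x)) {p : Ω} (hfix : ∀ h ∈ H, h p = p)
    (hmove : ∀ h ∈ H, h (x p) ≠ p) (g : Equiv.Perm Ω) : g ∈ ext H x ∧ g p = p ↔ g ∈ H := by
  refine ⟨fun ⟨hg, hp⟩ => ?_, fun hg => ⟨subset_closure (Or.inl hg), hfix g hg⟩⟩
  rcases (mem_ext_iff hx hclosed g).1 hg with h | ⟨a, ha, b, hb, rfl⟩
  · exact h
  · rw [Equiv.Perm.mul_apply, Equiv.Perm.mul_apply, hfix b hb] at hp
    exact absurd hp (hmove a ha)

/-- The order of an extension. -/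
theorem card_ext {Ω : Type*} [Finite Ω] {H : Subgroup (Equiv.Perm Ω)} {x : Equiv.Perm Ω} (hx : x * x = 1)
    (hclosed : ∀ h ∈ H, InExt H x (x * h * x)) {p : Ω} (hfix : ∀ h ∈ H, h p = p)
    (hmove : ∀ h ∈ H, h (x p) ≠ p) (S : Set Ω) (hp : p ∈ S) (hout : ∀ h ∈ H, h (x p) ∈ S)
    (hsur : ∀ y ∈ S, y ≠ p → ∃ h ∈ H, h (x p) = y) :
    Nat.card (ext H x) = Nat.card S * Nat.card H ∧ ∀ y ∈ S, ∃ g ∈ ext H x, g p = y := by
  classical
  have hsur' : ∀ y ∈ S, ∃ g ∈ ext H x, g p = y := fun y hy => by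
    by_cases e : y = p
    · exact ⟨1, one_mem _, e.symm⟩
    · obtain ⟨h, hh, e'⟩ := hsur y hy e
      exact ⟨h * x, mul_mem (subset_closure (Or.inl hh)) (subset_closure (Or.inr rfl)), e'⟩
  refine ⟨?_, hsur'⟩
  have horb : MulAction.orbit (ext H x) p = S := by
    ext y
    refine ⟨?_, fun hy => ?_⟩
    · rintro ⟨g, rfl⟩
      show (g : Equiv.Perm Ω) p ∈ S
      rcases (mem_ext_iff hx hclosed g).1 g.2 with h | ⟨a, ha, b, hb, e⟩
      · rw [hfix _ h]; exact hp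
      · rw [e, Equiv.Perm.mul_apply, Equiv.Perm.mul_apply, hfix b hb]; exact hout a ha
    · obtain ⟨g, hg, rfl⟩ := hsur' y hy
      exact ⟨⟨g, hg⟩, rfl⟩
  have hstab : MulAction.stabilizer (ext H x) p = H.subgroupOf (ext H x) := by
    ext g
    exact ⟨fun h => (fix_iff hx hclosed hfix hmove _).1 ⟨g.2, h⟩, fun h => hfix _ h⟩
  rw [← Subgroup.index_mul_card (MulAction.stabilizer (ext H x) p), MulAction.index_stabilizer, horb, hstab,
    Nat.card_congr (Subgroup.subgroupOfEquivOfLe (show H ≤ ext H x from fun h hh => subset_closure (Or.inl hh))).toEquiv,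
    Nat.card_coe_set_eq]

/-- A second extension is closed. -/
theorem closed_step {G : Type*} [Group G] [Finite G] {H : Subgroup G} {x y : G} (hx : x * x = 1) (hy : y * y = 1)
    (hclosed : ∀ h ∈ H, InExt H x (x * h * x)) (hnorm : ∀ h ∈ H, y * h * y ∈ H)
    (hbraid : x * y * x * y * x * y = 1) : ∀ h ∈ ext H x, InExt (ext H x) y (y * h * y) := by
  have hsub : ∀ h ∈ H, h ∈ ext H x := fun h hh => subset_closure (Or.inl hh)
  intro h hh
  rcases (mem_ext_iff hx hclosed h).1 hh with hh | ⟨a, ha, b, hb, rfl⟩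
  · exact Or.inl (hsub _ (hnorm h hh))
  · have e : y * x * y = x * y * x := by
      have hxi : x⁻¹ = x := inv_eq_of_mul_eq_one_right hx
      have hyi : y⁻¹ = y := inv_eq_of_mul_eq_one_right hy
      have h1 : x * y * x * (y * x * y) = 1 := by rw [← hbraid]; group
      rw [← inv_eq_of_mul_eq_one_right h1, mul_inv_rev, mul_inv_rev, hxi, hyi, mul_assoc]
    refine Or.inr ⟨y * a * y * x, mul_mem (hsub _ (hnorm a ha)) (subset_closure (Or.inr rfl)),
      x * (y * b * y), mul_mem (subset_closure (Or.inr rfl)) (hsub _ (hnorm b hb)), ?_⟩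
    calc y * (a * x * b) * y = y * a * (y * y) * x * (y * y) * b * y := by rw [hy, mul_one, mul_one]; group
      _ = y * a * y * (y * x * y) * (y * b * y) := by group
      _ = y * a * y * x * y * (x * (y * b * y)) := by rw [e]; group

def s : Equiv.Perm (Fin 12) := Equiv.swap (3 : Fin 12) 5 * Equiv.swap (3 : Fin 12) 4 * Equiv.swap (6 : Fin 12) 8 * Equiv.swap (6 : Fin 12) 7 * Equiv.swap (9 : Fin 12) 11 * Equiv.swap (9 : Fin 12) 10
def t : Equiv.Perm (Fin 12) := Equiv.swap (3 : Fin 12) 9 * Equiv.swap (3 : Fin 12) 6 * Equiv.swap (4 : Fin 12) 10 * Equiv.swap (4 : Fin 12) 7 * Equiv.swap (5 : Fin 12) 11 * Equiv.swap (5 : Fin 12) 8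
def u : Equiv.Perm (Fin 12) := Equiv.swap (4 : Fin 12) 9 * Equiv.swap (4 : Fin 12) 5 * Equiv.swap (4 : Fin 12) 6 * Equiv.swap (7 : Fin 12) 10 * Equiv.swap (7 : Fin 12) 11 * Equiv.swap (7 : Fin 12) 8
def v : Equiv.Perm (Fin 12) := Equiv.swap (4 : Fin 12) 11 * Equiv.swap (4 : Fin 12) 5 * Equiv.swap (4 : Fin 12) 7 * Equiv.swap (6 : Fin 12) 8 * Equiv.swap (6 : Fin 12) 9 * Equiv.swap (6 : Fin 12) 10
def w : Equiv.Perm (Fin 12) := Equiv.swap (4 : Fin 12) 8 * Equiv.swap (4 : Fin 12) 5 * Equiv.swap (4 : Fin 12) 10 * Equiv.swap (6 : Fin 12) 7 * Equiv.swap (6 : Fin 12) 9 * Equiv.swap (6 : Fin 12) 11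
def x₁ : Equiv.Perm (Fin 12) := Equiv.swap (0 : Fin 12) 3 * Equiv.swap (6 : Fin 12) 7 * Equiv.swap (8 : Fin 12) 10 * Equiv.swap (9 : Fin 12) 11
def x₂ : Equiv.Perm (Fin 12) := Equiv.swap (0 : Fin 12) 1 * Equiv.swap (6 : Fin 12) 9 * Equiv.swap (7 : Fin 12) 10 * Equiv.swap (8 : Fin 12) 11
def x₃ : Equiv.Perm (Fin 12) := Equiv.swap (1 : Fin 12) 2 * Equiv.swap (6 : Fin 12) 11 * Equiv.swap (7 : Fin 12) 9 * Equiv.swap (8 : Fin 12) 10

/-- The seventy-two elements of the nine-point group. -/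
def elt (i : Fin 72) : Equiv.Perm (Fin 12) :=
  s ^ (i.val / 24) * t ^ (i.val / 8 % 3) * (u ^ (i.val % 4) * v ^ (i.val / 4 % 2))

def gen : Fin 5 → Equiv.Perm (Fin 12) := ![s, t, u, v, w]

/-- The table of left multiplication by the five generators. -/
def left : List (Fin 72) := [
  24, 25, 26, 27, 28, 29, 30, 31, 32, 33, 34, 35, 36, 37, 38, 39, 40, 41, 42, 43, 44, 45, 46, 47,
  48, 49, 50, 51, 52, 53, 54, 55, 56, 57, 58, 59, 60, 61, 62, 63, 64, 65, 66, 67, 68, 69, 70, 71,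
  0, 1, 2, 3, 4, 5, 6, 7, 8, 9, 10, 11, 12, 13, 14, 15, 16, 17, 18, 19, 20, 21, 22, 23,
  8, 9, 10, 11, 12, 13, 14, 15, 16, 17, 18, 19, 20, 21, 22, 23, 0, 1, 2, 3, 4, 5, 6, 7,
  32, 33, 34, 35, 36, 37, 38, 39, 40, 41, 42, 43, 44, 45, 46, 47, 24, 25, 26, 27, 28, 29, 30, 31,
  56, 57, 58, 59, 60, 61, 62, 63, 64, 65, 66, 67, 68, 69, 70, 71, 48, 49, 50, 51, 52, 53, 54, 55,
  1, 2, 3, 0, 5, 6, 7, 4, 49, 50, 51, 48, 53, 54, 55, 52, 25, 26, 27, 24, 29, 30, 31, 28,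
  9, 10, 11, 8, 13, 14, 15, 12, 57, 58, 59, 56, 61, 62, 63, 60, 33, 34, 35, 32, 37, 38, 39, 36,
  17, 18, 19, 16, 21, 22, 23, 20, 65, 66, 67, 64, 69, 70, 71, 68, 41, 42, 43, 40, 45, 46, 47, 44,
  4, 7, 6, 5, 2, 1, 0, 3, 44, 47, 46, 45, 42, 41, 40, 43, 60, 63, 62, 61, 58, 57, 56, 59,
  36, 39, 38, 37, 34, 33, 32, 35, 52, 55, 54, 53, 50, 49, 48, 51, 20, 23, 22, 21, 18, 17, 16, 19,
  68, 71, 70, 69, 66, 65, 64, 67, 12, 15, 14, 13, 10, 9, 8, 11, 28, 31, 30, 29, 26, 25, 24, 27,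
  7, 6, 5, 4, 1, 0, 3, 2, 71, 70, 69, 68, 65, 64, 67, 66, 39, 38, 37, 36, 33, 32, 35, 34,
  47, 46, 45, 44, 41, 40, 43, 42, 15, 14, 13, 12, 9, 8, 11, 10, 55, 54, 53, 52, 49, 48, 51, 50,
  63, 62, 61, 60, 57, 56, 59, 58, 31, 30, 29, 28, 25, 24, 27, 26, 23, 22, 21, 20, 17, 16, 19, 18]

theorem left_spec : ∀ g : Fin 5, ∀ i : Fin 72, gen g * elt i = elt (left.getD (72 * g.val + i.val) 0) := by
  decide +kernel

/-- The table of conjugation by the first involution. -/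
def twist : List (Bool × Fin 72 × Fin 72) := [
  (false, 0, 0), (false, 4, 0), (false, 2, 0), (false, 6, 0), (false, 1, 0), (false, 7, 0),
  (false, 3, 0), (false, 5, 0), (true, 32, 21), (true, 32, 19), (true, 32, 23), (true, 32, 17),
  (true, 32, 20), (true, 32, 16), (true, 32, 22), (true, 32, 18), (true, 64, 13), (true, 64, 11),
  (true, 64, 15), (true, 64, 9), (true, 64, 12), (true, 64, 8), (true, 64, 14), (true, 64, 10),
  (true, 24, 50), (true, 24, 54), (true, 24, 48), (true, 24, 52), (true, 24, 51), (true, 24, 53),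
  (true, 24, 49), (true, 24, 55), (true, 8, 71), (true, 8, 65), (true, 8, 69), (true, 8, 67),
  (true, 8, 70), (true, 8, 66), (true, 8, 68), (true, 8, 64), (true, 56, 56), (true, 56, 60),
  (true, 56, 58), (true, 56, 62), (true, 56, 57), (true, 56, 63), (true, 56, 59), (true, 56, 61),
  (true, 48, 26), (true, 48, 30), (true, 48, 24), (true, 48, 28), (true, 48, 27), (true, 48, 29),
  (true, 48, 25), (true, 48, 31), (true, 40, 40), (true, 40, 44), (true, 40, 42), (true, 40, 46),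
  (true, 40, 41), (true, 40, 47), (true, 40, 43), (true, 40, 45), (true, 16, 39), (true, 16, 33),
  (true, 16, 37), (true, 16, 35), (true, 16, 38), (true, 16, 34), (true, 16, 36), (true, 16, 32)]

theorem twist_spec : ∀ i : Fin 72, x₁ * elt i * x₁ =
    if (twist.getD i.val (false, 0, 0)).1 then
      elt (twist.getD i.val (false, 0, 0)).2.1 * x₁ * elt (twist.getD i.val (false, 0, 0)).2.2
    else elt (twist.getD i.val (false, 0, 0)).2.1 := by
  decide +kernel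

theorem elt_injective : Function.Injective elt := by
  have h : ∀ i j : Fin 72, elt i 3 = elt j 3 → elt i 4 = elt j 4 → i = j := by decide +kernel
  exact fun i j e => h i j (by rw [e]) (by rw [e])

theorem elt_facts : (∀ i, elt i 0 = 0 ∧ elt i 1 = 1 ∧ elt i 2 = 2 ∧ 3 ≤ elt i 3) ∧
    (∀ i, elt i 3 = 3 → elt i 4 = 4 → i = 0) ∧ (∀ y : Fin 12, 3 ≤ y → ∃ i, elt i 3 = y) := by
  decide +kernel

theorem gen_facts : (∀ g : Fin 5, x₂ * gen g * x₂ ∈ Set.range elt ∧ x₃ * gen g * x₃ ∈ Set.range elt) ∧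
    x₁ * x₁ = 1 ∧ x₂ * x₂ = 1 ∧ x₃ * x₃ = 1 ∧ x₁ * x₂ * x₁ * x₂ * x₁ * x₂ = 1 ∧
    x₂ * x₃ * x₂ * x₃ * x₂ * x₃ = 1 ∧ x₁ * x₃ * x₁ * x₃ = 1 ∧ elt 0 = 1 ∧
    x₁ 0 = 3 ∧ x₁ 1 = 1 ∧ x₁ 2 = 2 ∧ x₂ 1 = 0 ∧ x₂ 2 = 2 ∧ x₃ 2 = 1 := by
  decide +kernel

/-- The nine-point group. -/
def M9 : Subgroup (Equiv.Perm (Fin 12)) := closure (Set.range gen)

theorem mem_M9_iff (g : Equiv.Perm (Fin 12)) : g ∈ M9 ↔ g ∈ Set.range elt := by
  refine ⟨fun hg => ?_, ?_⟩
  · rw [M9, ← mem_toSubmonoid, closure_toSubmonoid_of_finite] at hg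
    induction hg using Submonoid.closure_induction_left with
    | one => exact ⟨0, gen_facts.2.2.2.2.2.2.2.1⟩
    | mul_left x hx y _ hy =>
      obtain ⟨k, rfl⟩ := hx
      obtain ⟨i, rfl⟩ := hy
      exact ⟨_, (left_spec k i).symm⟩
  · rintro ⟨i, rfl⟩
    refine mul_mem (mul_mem (pow_mem (subset_closure (show s ∈ Set.range gen from ⟨0, rfl⟩)) _) (pow_mem (subset_closure (show t ∈ Set.range gen from ⟨1, rfl⟩)) _))
      (mul_mem (pow_mem (subset_closure (show u ∈ Set.range gen from ⟨2, rfl⟩)) _) (pow_mem (subset_closure (show v ∈ Set.range gen from ⟨3, rfl⟩)) _))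

theorem card_M9 : Nat.card M9 = 72 := by
  show Nat.card (M9 : Set (Equiv.Perm (Fin 12))) = 72
  rw [Nat.card_congr (Equiv.setCongr (show (M9 : Set (Equiv.Perm (Fin 12))) = Set.range elt from Set.ext mem_M9_iff)),
    Nat.card_range_of_injective elt_injective, Nat.card_fin]

end Cfsg.Agent.Lib.WittTwelve
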